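import Cfsg.Agent.Lib.Forms.AltRepS
import Cfsg.Agent.Lib.Forms.SmallPerm

/-! Lower bound for the dimension of a linear group with an alternating quotient. -/

set_option autoImplicit false

namespace Cfsg.Agent.Lib.Forms

open Equiv Module Subgroup
open scoped commutatorElement

universe u

/-- `π : H → Sym(Ω)` has image the alternating group. -/
structure AS {Ω : Type} [Fintype Ω] [DecidableEq Ω] {H : Type*} [Group H] (π : H →* Perm Ω) : Prop where
  surj : ∀ σ, Perm.sign σ = 1 → ∃ h, π h = σ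
  even : ∀ h, Perm.sign (π h) = 1
  card : 9 ≤ Fintype.card Ω

/-- The degree bound. -/
def Bd (k : Type*) [Field k] (r n : ℕ) : Prop := r - 2 ≤ n ∧ ((r : k) ≠ 0 → r - 1 ≤ n)

theorem Bd.mono {k : Type*} [Field k] {r n m : ℕ} (h : Bd k r n) (h' : n ≤ m) : Bd k r m :=
  ⟨h.1.trans h', fun h1 => (h.2 h1).trans h'⟩

theorem Bd.of_le {k : Type*} [Field k] {r n : ℕ} (h : r - 1 ≤ n) : Bd k r n := ⟨by omega, fun _ => h⟩

/-- The bound in dimension `n`. -/
def MainP (n : ℕ) : Prop := ∀ (k V Ω : Type) (H : Type u) [Field k] [IsAlgClosed k] [AddCommGroup V] [Module k V]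
  [FiniteDimensional k V] [Fintype Ω] [DecidableEq Ω] [Group H] [Finite H] (ρ : H →* End k V) (π : H →* Perm Ω),
  finrank k V = n → AS π → (∀ h, ρ h = 1 → π h = 1) → Bd k (Fintype.card Ω) n

variable {Ω : Type} [Fintype Ω] [DecidableEq Ω] {H : Type u} [Group H] {π : H →* Perm Ω}

theorem AS.normal (h : AS π) (N : Subgroup H) [hN : N.Normal] :
    (∀ x ∈ N, π x = 1) ∨ ∀ σ, Perm.sign σ = 1 → ∃ x ∈ N, π x = σ := by
  let π' : H →* alternatingGroup Ω := π.codRestrict _ h.even
  have hs : Function.Surjective π' := fun σ => (h.surj σ.1 σ.2).imp fun x hx => Subtype.ext hx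
  haveI := alternatingGroup.isSimpleGroup (α := Ω) (by have := h.card; rw [Nat.card_eq_fintype_card]; omega)
  rcases (hN.map π' hs).eq_bot_or_eq_top with e | e
  · exact .inl fun x hx => congrArg Subtype.val (mem_bot.mp (e.le (mem_map_of_mem π' hx)))
  · refine .inr fun σ hσ => ?_
    obtain ⟨x, hx, e'⟩ := e.ge (mem_top ⟨σ, hσ⟩)
    exact ⟨x, hx, congrArg Subtype.val e'⟩

theorem AS.card_le (h : AS π) {M : Type*} [Monoid M] [Finite M] (g : H →* M) (hg : ∀ x, g x = 1 → π x = 1) :
    (Fintype.card Ω).factorial ≤ 2 * Nat.card M := by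
  haveI : Nontrivial Ω := Fintype.one_lt_card_iff_nontrivial.mp (by have := h.card; omega)
  choose s hs using fun σ : alternatingGroup Ω => h.surj σ.1 σ.2
  have := Nat.card_le_card_of_injective (fun σ => g (s σ)) fun σ τ e => Subtype.ext (by
    have := hg ((s σ)⁻¹ * s τ) (by rw [map_mul, ← show g (s σ) = g (s τ) from e, ← map_mul, inv_mul_cancel, map_one])
    rwa [map_mul, map_inv, hs, hs, inv_mul_eq_one] at this)
  rw [← Nat.card_eq_fintype_card, ← Nat.card_perm, ← two_mul_nat_card_alternatingGroup]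
  omega

theorem AS.not_comm (h : AS π) : ¬ ∀ x y : H, π ⁅x, y⁆ = 1 := fun h1 => by
  obtain ⟨e⟩ : Nonempty (Fin 4 ↪ Ω) := Function.Embedding.nonempty_of_card_le (by have := h.card; simp; omega)
  obtain ⟨x, hx⟩ := h.surj _ ((sign_Jp e (c3 0 1 2)).trans (by decide))
  obtain ⟨y, hy⟩ := h.surj _ ((sign_Jp e (c3 0 1 3)).trans (by decide))
  have := h1 x y
  rw [map_commutatorElement, hx, hy, ← map_commutatorElement,
    map_eq_one_iff _ (Perm.viaEmbeddingHom_injective e)] at this
  exact absurd this (by decide)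

theorem MainP.finite {n : ℕ} (hn : MainP.{u} n) (p : ℕ) [Fact p.Prime] {F W : Type*} [Field F] [Finite F] [CharP F p]
    [AddCommGroup W] [Module F W] [FiniteDimensional F W] [Finite H] (ρ : H →* End F W) (hW : finrank F W = n)
    (h : AS π) (hρ : ∀ x, ρ x = 1 → π x = 1) : Bd F (Fintype.card Ω) n := by
  letI := ZMod.algebra F p
  let φ : F →+* AlgebraicClosure (ZMod p) :=
    (IsAlgClosed.lift (R := ZMod p) (M := AlgebraicClosure (ZMod p)) (S := F)).toRingHom
  let Φ : End F W →+* End (AlgebraicClosure (ZMod p)) (Fin n → AlgebraicClosure (ZMod p)) :=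
    (Matrix.toLinAlgEquiv' (R := AlgebraicClosure (ZMod p)) (n := Fin n)).toRingEquiv.toRingHom.comp
      (φ.mapMatrix.comp (LinearMap.toMatrixAlgEquiv (finBasisOfFinrankEq F W hW)).toRingEquiv.toRingHom)
  have hΦ : Function.Injective Φ := (Matrix.toLinAlgEquiv' (R := AlgebraicClosure (ZMod p)) (n := Fin n)).injective.comp
    ((Matrix.map_injective φ.injective).comp (LinearMap.toMatrixAlgEquiv (finBasisOfFinrankEq F W hW)).injective)
  have := hn _ _ Ω H (Φ.toMonoidHom.comp ρ) π (by simp) h fun x hx => hρ x (hΦ (hx.trans (map_one Φ).symm))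
  exact ⟨this.1, fun h1 => this.2 (by rwa [← map_natCast φ, map_ne_zero])⟩

variable {k V : Type} [Field k] [IsAlgClosed k] [AddCommGroup V] [Module k V] [FiniteDimensional k V] {ρ : H →* End k V}

omit [Fintype Ω] [DecidableEq Ω] in
theorem exists_scalar [Nontrivial V] (irr : ∀ U : Submodule k V, (∀ h, ∀ v ∈ U, ρ h v ∈ U) → U = ⊥ ∨ U = ⊤) {z : H}
    (hz : z ∈ center H) : ∃ c : k, ρ z = c • 1 := by
  obtain ⟨c, hc⟩ := End.exists_eigenvalue (ρ z)
  refine ⟨c, LinearMap.ext fun v => End.mem_eigenspace_iff.mp (((irr _ fun h v hv => End.mem_eigenspace_iff.mpr ?_).resolve_left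
    hc).ge Submodule.mem_top)⟩
  rw [← rho_mul, ← mem_center_iff.mp hz, rho_mul, End.mem_eigenspace_iff.mp hv, map_smul]

theorem AS.caseA [Nontrivial V] (h : AS π) (hN : ∀ N : Subgroup H, N.Normal → (∀ x ∈ N, π x = 1) ∨ N = ⊤)
    (inj : Function.Injective ρ) (irr : ∀ U : Submodule k V, (∀ h, ∀ v ∈ U, ρ h v ∈ U) → U = ⊥ ∨ U = ⊤)
    (E : Subgroup H) [E.Normal] (hE : ¬ E ≤ center H) (hc : ∀ x y : E, Commute x y) :
    Fintype.card Ω - 1 ≤ finrank k V := by
  letI : MulAction H E := MulAction.compHom E (MulAut.conjNormal (H := E))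
  letI : MulAction H (E → k) := arrowAction
  have h1 : ∀ (g : H) χ, ∀ v ∈ JE (fun x : E => ρ x) χ, ρ g v ∈ JE (fun x : E => ρ x) (g • χ) := fun g χ v hv =>
    mem_JE.mpr fun x => by
      rw [← map_smul, show (g • χ) x = χ (MulAut.conjNormal g⁻¹ x) from rfl, ← mem_JE.mp hv, ← rho_mul, ← rho_mul]
      simp [mul_assoc]
  obtain ⟨χ, hχ⟩ := exists_JE_ne_bot (f := fun x : E => ρ x) fun x y => (hc x y).map (ρ.comp E.subtype)
  have h2 : ∀ a : MulAction.orbit H χ, 1 ≤ finrank k (JE (fun x : E => ρ x) a.1) := by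
    rintro ⟨_, g, rfl⟩
    obtain ⟨v, hv, hv'⟩ := (Submodule.ne_bot_iff _).mp hχ
    refine Submodule.one_le_finrank_iff.mpr ((Submodule.ne_bot_iff _).mpr ⟨_, h1 g χ v hv, fun e => hv' ?_⟩)
    simpa [← rho_mul] using congrArg (ρ g⁻¹) e
  haveI : Finite (MulAction.orbit H χ) := (Submodule.finite_ne_bot_of_iSupIndep (iSupIndep_JE _)).subset
    fun a ha => Submodule.one_le_finrank_iff.mp (h2 ⟨a, ha⟩)
  haveI := Fintype.ofFinite (MulAction.orbit H χ)
  have h3 := mul_card_le_of_JE (Λ := MulAction.orbit H χ) _ Subtype.val_injective h2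
  rcases hN (MulAction.toPermHom H (MulAction.orbit H χ)).ker inferInstance with h4 | h4
  · have h5 := h.card_le _ h4
    rw [Nat.card_perm, Nat.card_eq_fintype_card] at h5
    by_contra! h6
    obtain ⟨m, hm⟩ : ∃ m, Fintype.card Ω = m + 1 := ⟨Fintype.card Ω - 1, by have := h.card; omega⟩
    have h7 := Nat.factorial_le (show Fintype.card (MulAction.orbit H χ) ≤ m by omega)
    have h8 := h.card
    rw [hm, Nat.factorial_succ] at h5
    nlinarith [m.factorial_pos]
  · have h5 := (irr _ fun g v hv => by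
      have := h1 g χ v hv
      have h6 := congrArg Subtype.val (DFunLike.congr_fun (MonoidHom.mem_ker.mp (h4.ge (mem_top g)))
        ⟨χ, MulAction.mem_orbit_self χ⟩)
      rwa [show g • χ = χ from h6] at this).resolve_left hχ
    refine (hE fun x hx => mem_center_iff.mpr fun g => inj (LinearMap.ext fun v => ?_)).elim
    have h6 := fun v => mem_JE.mp (h5.ge (Submodule.mem_top (x := v))) ⟨x, hx⟩
    rw [rho_mul, rho_mul, h6, h6, map_smul]

theorem AS.elem [Finite H] {n : ℕ} (IH : ∀ m < n, MainP.{u} m) (h : AS π) {A : Type*} [CommGroup A] [Finite A]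
    (l : ℕ) [hp : Fact l.Prime] [Module (ZMod l) (Additive A)] (h1 : Nat.card A ≤ n * n) (φ : H →* MulAut A)
    (hφ : ∀ x, φ x = 1 → π x = 1) : Fintype.card Ω - 1 ≤ n := by
  let σ : H →* End (ZMod l) (Additive A) :=
    { toFun := fun g => (MonoidHom.toAdditive (φ g).toMonoidHom).toZModLinearMap l
      map_one' := by ext v; simp
      map_mul' := fun a b => by ext v; simp }
  have h2 : ∀ x, σ x = 1 → π x = 1 := fun x hx => hφ x (MulEquiv.ext fun a => LinearMap.congr_fun hx (Additive.ofMul a))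
  rw [Nat.card_congr Additive.ofMul, Module.natCard_eq_pow_finrank (K := ZMod l), Nat.card_zmod] at h1
  by_cases h3 : finrank (ZMod l) (Additive A) < n
  · have := ((IH _ h3).finite l σ rfl h h2).1
    omega
  haveI : Finite (End (ZMod l) (Additive A)) := Finite.of_injective _ DFunLike.coe_injective
  have h4 := h.card_le σ h2
  rw [Module.natCard_eq_pow_finrank (K := ZMod l), Nat.card_zmod, finrank_linearMap, pow_mul] at h4
  generalize finrank (ZMod l) (Additive A) = d at *
  have h5 : l ^ d ≤ d * d := h1.trans (Nat.mul_le_mul (not_lt.mp h3) (not_lt.mp h3))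
  have h6 : d ≤ 4 := by
    by_contra! h6
    have h7 : ∀ d, 5 ≤ d → d * d < 2 ^ d := fun d hd => by
      induction d, hd using Nat.le_induction with
      | base => norm_num
      | succ d hd ih => rw [pow_succ]; nlinarith
    exact absurd ((Nat.pow_le_pow_left hp.out.two_le d).trans h5) (not_le.mpr (h7 d h6))
  have h7 : (l ^ d) ^ d ≤ 16 ^ 4 :=
    (Nat.pow_le_pow_left (h5.trans (Nat.mul_le_mul h6 h6)) d).trans (Nat.pow_le_pow_right (by norm_num) h6)
  have := Nat.factorial_le h.card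
  norm_num [Nat.factorial] at this h7
  omega

theorem AS.caseE [Finite H] [Nontrivial V] (IH : ∀ m < finrank k V, MainP.{u} m) (h : AS π)
    (hN : ∀ N : Subgroup H, N.Normal → (∀ x ∈ N, π x = 1) ∨ N = ⊤)
    (inj : Function.Injective ρ) (irr : ∀ U : Submodule k V, (∀ h, ∀ v ∈ U, ρ h v ∈ U) → U = ⊥ ∨ U = ⊤)
    (E : Subgroup H) [hEn : E.Normal] (hE : ¬ E ≤ center H) (hc : ∀ x ∈ E, ∀ y ∈ E, ⁅x, y⁆ ∈ center H)
    (hz : ∀ x ∈ E, (∀ y ∈ E, Commute x y) → x ∈ center H) {l : ℕ} [hp : Fact l.Prime]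
    (hl : ∀ x ∈ E, x ^ l ∈ center H) : Fintype.card Ω - 1 ≤ finrank k V := by
  let q := QuotientGroup.mk' (center H)
  have hq : ∀ x, q x = 1 ↔ x ∈ center H := fun x => QuotientGroup.eq_one_iff x
  let A := E.map q
  haveI : A.Normal := hEn.map q (QuotientGroup.mk'_surjective _)
  choose s hs hs' using fun a : A => mem_map.mp a.2
  choose! c hc' using fun z (hz : z ∈ center H) => exists_scalar irr hz
  haveI := Fintype.ofFinite A
  have h1 := mul_card_le_of_JE (fun e : E => LinearMap.mulLeftRight k (ρ e, ρ e⁻¹)) (Λ := A)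
    (χ := fun a e => c ⁅e.1, s a⁆) (m := 1) (fun a b e => by
      rw [Subtype.ext_iff, ← hs', ← hs', eq_comm, ← inv_mul_eq_one, ← map_inv, ← map_mul, hq]
      refine hz _ (mul_mem (inv_mem (hs _)) (hs _)) fun y hy => ?_
      have : ⁅y, s a⁆ = ⁅y, s b⁆ := inj (by
        rw [hc' _ (hc _ hy _ (hs _)), hc' _ (hc _ hy _ (hs _))]; exact congrArg (· • 1) (congrFun e ⟨y, hy⟩))
      calc (s b)⁻¹ * s a * y = (s b)⁻¹ * ⁅y, s a⁆⁻¹ * y * s a := by simp only [commutatorElement_def]; group
        _ = _ := by rw [this]; simp only [commutatorElement_def]; group) fun a => by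
    refine Submodule.one_le_finrank_iff.mpr ((Submodule.ne_bot_iff _).mpr ⟨ρ (s a), mem_JE.mpr fun e => ?_,
      ((Group.isUnit _).map ρ).ne_zero⟩)
    rw [LinearMap.mulLeftRight_apply, ← smul_one_mul, ← hc' _ (hc _ e.2 _ (hs _)), ← map_mul, ← map_mul, ← map_mul]
    simp [commutatorElement_def]
  letI : CommGroup A := { (inferInstance : Group A) with
    mul_comm := fun a b => Subtype.ext (by
      rw [coe_mul, coe_mul, ← commutatorElement_eq_one_iff_mul_comm, ← hs', ← hs', ← map_commutatorElement, hq]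
      exact hc _ (hs _) _ (hs _)) }
  rcases hN ((MulAut.conjNormal (H := A)).comp q).ker inferInstance with h2 | h2
  · have h3 : ∀ a : A, a ^ l = 1 := fun a => Subtype.ext (by
      rw [coe_pow, ← hs', ← map_pow]; exact (hq _).mpr (hl _ (hs _)))
    letI : Module (ZMod l) (Additive A) := AddCommGroup.zmodModule fun a => h3 a.toMul
    rw [one_mul, finrank_linearMap, ← Nat.card_eq_fintype_card] at h1
    exact h.elem IH (A := A) l h1 _ h2
  · have h3 : ⁅(⊤ : Subgroup H), (⊤ : Subgroup H)⁆ = ⊤ := (hN _ inferInstance).resolve_left fun h3 =>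
      h.not_comm fun x y => h3 _ (commutator_mem_commutator trivial trivial)
    refine (hE ?_).elim
    rw [← centralizer_univ, ← coe_top, ← commutator_eq_bot_iff_le_centralizer]
    refine Core.commutator_eq_bot_of_perfect h3 ?_
    rw [commutator_eq_bot_iff_le_centralizer, coe_top, centralizer_univ, commutator_comm, commutator_le]
    intro g _ x hx
    have h4 : q g * q x * (q g)⁻¹ = q x := congrArg (fun f : MulAut A => (f ⟨q x, mem_map_of_mem q hx⟩).1)
      (MonoidHom.mem_ker.mp (h2.ge (mem_top g)))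
    rw [← hq, map_commutatorElement, commutatorElement_def, h4, mul_inv_cancel]

theorem AS.noncentral [Finite H] [Nontrivial V] (IH : ∀ m < finrank k V, MainP.{u} m) (h : AS π)
    (hS : ∀ S : Subgroup H, (∀ σ, Perm.sign σ = 1 → ∃ x ∈ S, π x = σ) → S = ⊤)
    (inj : Function.Injective ρ) (irr : ∀ U : Submodule k V, (∀ h, ∀ v ∈ U, ρ h v ∈ U) → U = ⊥ ∨ U = ⊤)
    (hK : ¬ π.ker ≤ center H) : Fintype.card Ω - 1 ≤ finrank k V := by
  have hN : ∀ N : Subgroup H, N.Normal → (∀ x ∈ N, π x = 1) ∨ N = ⊤ := fun N _ => (h.normal N).imp_right (hS N)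
  have h1 : π.ker ≤ frattini H := le_iInf₂ fun M hM => by
    by_contra h1
    refine hM.1 (hS M fun σ hσ => ?_)
    obtain ⟨x, rfl⟩ := h.surj σ hσ
    obtain ⟨y, hy, z, hz, rfl⟩ := mem_sup_of_normal_right.mp ((hM.2 _ (left_lt_sup.mpr h1)).ge (mem_top x))
    exact ⟨y, hy, by rw [map_mul, MonoidHom.mem_ker.mp hz, mul_one]⟩
  obtain ⟨E, ⟨hE1, hE2, hE3⟩, hE4⟩ := (wellFounded_lt (α := Subgroup H)).has_min
    {E | E.Normal ∧ E ≤ π.ker ∧ ¬ E ≤ center H} ⟨_, inferInstance, le_rfl, hK⟩
  have h2 : ∀ F : Subgroup H, F.Normal → F < E → F ≤ center H := fun F h1 h2 =>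
    by_contra fun h3 => hE4 F ⟨h1, h2.le.trans hE2, h3⟩ h2
  by_cases hc : ∀ x y : E, Commute x y
  · exact h.caseA hN inj irr E hE3 hc
  have h3 : ∀ x ∈ E, ∀ y ∈ E, ⁅x, y⁆ ∈ center H := by
    haveI := frattini_nilpotent (G := H)
    haveI : Group.IsSolvable E :=
      Group.isSolvable_of_isSolvable_injective (inclusion_injective (hE2.trans h1))
    haveI : Nontrivial E := (nontrivial_iff_ne_bot _).mpr fun e => hE3 (e ▸ bot_le)
    have h3 := map_subtype_lt_map_subtype.mpr (Group.IsSolvable.commutator_lt_top_of_nontrivial E)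
    rw [map_subtype_commutator, ← MonoidHom.range_eq_map, range_subtype] at h3
    exact commutator_le.mp (h2 _ inferInstance h3)
  obtain ⟨x, hx, hx'⟩ := SetLike.not_le_iff_exists.mp hE3
  have hq : ∀ x, QuotientGroup.mk' (center H) x = 1 ↔ x ∈ center H := fun x => QuotientGroup.eq_one_iff x
  obtain ⟨l, hl, m, hm⟩ := Nat.exists_prime_and_dvd (mt orderOf_eq_one_iff.mp (mt (hq x).mp hx'))
  haveI := Fact.mk hl
  let F : Subgroup H :=
    { carrier := {x | x ∈ E ∧ x ^ l ∈ center H}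
      one_mem' := ⟨one_mem _, by simp⟩
      inv_mem' := fun hx => ⟨inv_mem hx.1, by simpa using hx.2⟩
      mul_mem' := fun {a b} ha hb => ⟨mul_mem ha.1 hb.1, by
        rw [← hq, map_pow, map_mul, Commute.mul_pow (commutatorElement_eq_one_iff_commute.mp (by
          rw [← map_commutatorElement, hq]; exact h3 _ ha.1 _ hb.1)), ← map_pow, ← map_pow, (hq _).mpr ha.2,
          (hq _).mpr hb.2, mul_one]⟩ }
  have h4 : F = E := by
    refine eq_of_le_of_not_lt (fun _ h => h.1) fun h4 => ?_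
    have h5 := h2 F ⟨fun a ha g => ⟨hE1.conj_mem a ha.1 g, by
      rw [conj_pow]; exact (normal_of_characteristic _).conj_mem _ ha.2 g⟩⟩ h4 (x := x ^ m) ⟨pow_mem hx m, by
      rw [← hq, ← pow_mul, map_pow, mul_comm, ← hm, pow_orderOf_eq_one]⟩
    rw [← hq, map_pow, ← orderOf_dvd_iff_pow_eq_one, hm] at h5
    have h6 := orderOf_pos (QuotientGroup.mk' (center H) x)
    have := Nat.le_of_dvd (Nat.pos_of_mul_pos_left (hm ▸ h6)) h5
    nlinarith [hl.two_le]
  refine h.caseE IH hN inj irr E hE3 h3 (fun x hx hx' => h2 (E ⊓ centralizer E) inferInstance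
    (lt_of_le_of_ne inf_le_left fun e => hc fun a b => Subtype.ext ((e.ge b.2).2 a a.2)) ⟨hx, fun y hy => (hx' y hy).symm⟩)
    (l := l) fun x hx => (h4.ge hx).2

theorem ACov.fix_or [Finite H] (h : ACov π) (IH : ∀ m < finrank k V, MainP.{u} m) {l : List Ω}
    (hΩ : l.length + 9 ≤ Fintype.card Ω) {U : Submodule k V} (hU : ∀ g, (∀ x ∈ l, π g x = x) → ∀ v ∈ U, ρ g v ∈ U)
    (hn : finrank k U < finrank k V) (hn' : finrank k U + l.length + 2 < Fintype.card Ω) : U ≤ FX π ρ l := by
  let L : Subgroup H := ⨅ x ∈ l, (MulAction.stabilizer (Perm Ω) x).comap π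
  have hL : ∀ g, g ∈ L ↔ ∀ x ∈ l, π g x = x := fun g => by simp [L]
  have hP : ∀ (g : L) x, (π.comp L.subtype g) x ∉ l ↔ x ∉ l := fun g x => not_congr
    ⟨fun h => (π g).injective ((hL _).mp g.2 _ h) ▸ h, fun h => ((hL _).mp g.2 x h).symm ▸ h⟩
  let π' : L →* Perm {x // x ∉ l} := resHom _ (· ∉ l) hP
  have h1 : ∀ g : L, Perm.ofSubtype (π' g) = π g := fun g =>
    Perm.ofSubtype_subtypePerm (f := π g) (p := (· ∉ l)) (hP g) fun x h1 h2 => h1 ((hL _).mp g.2 x h2)
  have h2 := card_notMem l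
  have h3 : AS π' := ⟨fun σ hσ => by
      obtain ⟨g, hg⟩ := h.surj (Perm.ofSubtype σ) ((Perm.sign_ofSubtype _).trans hσ)
      exact ⟨⟨g, (hL g).mpr fun x hx => hg ▸ Perm.ofSubtype_apply_of_not_mem _ (not_not.mpr hx)⟩,
        Perm.ofSubtype_injective ((h1 _).trans hg)⟩,
    fun g => by rw [← Perm.sign_ofSubtype, h1, h.even], by omega⟩
  let ρ' : L →* End k U := Representation.subrepresentation (ρ.comp L.subtype) U fun g => hU g ((hL _).mp g.2)
  rcases h3.normal ρ'.ker with h4 | h4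
  · have := (IH _ hn k U _ L ρ' _ rfl h3 h4).1
    omega
  intro v hv d e f h0 hd he hf
  obtain ⟨y, hy, hy'⟩ := h4 (c3 ⟨d, hd⟩ ⟨e, he⟩ ⟨f, hf⟩)
    (sign_c3 ⟨by simpa using h0.ab, by simpa using h0.ac, by simpa using h0.bc⟩)
  obtain ⟨g, g1, g2, g3, g4⟩ := h.exists_inv h0 l (by omega) he hf
  have h5 := (MonoidHom.normal_ker ρ').conj_mem y hy ⟨g, (hL g).mpr g4⟩
  have h6 : ∀ g : L, g ∈ ρ'.ker → ρ g v = v := fun g hg =>
    congrArg Subtype.val (LinearMap.congr_fun (MonoidHom.mem_ker.mp hg) ⟨v, hv⟩)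
  rw [← h.comm_eq_tau h0 (y := y) (by rw [← h1, hy']; simp [c3, Perm.ofSubtype_swap_eq]) g1 g2 g3]
  exact h6 _ (mul_mem h5 (inv_mem hy))

theorem ACov.caseB_big [Finite H] [Nontrivial V] (h : ACov π) (IH : ∀ m < finrank k V, MainP.{u} m)
    (hΩ : 12 ≤ Fintype.card Ω) (hn : finrank k V < Fintype.card Ω) : CaseB π ρ := by
  intro a b c h0 v
  let t := ρ (tau π a b c)
  have ht : ∀ w, t (t (t w)) = w := fun w => by
    rw [← rho_mul, ← rho_mul, mul_assoc, ← pow_three, h.tau_pow h0, map_one, End.one_apply]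
  let W := LinearMap.range (t - 1)
  have hc : ∀ g, π g a = a → π g b = b → π g c = c → ∀ w, ρ g (t w) = t (ρ g w) := fun g h1 h2 h3 w => by
    rw [← rho_mul, (h.commute_tau h0 h1 h2 h3).eq, rho_mul]
  have hW : ∀ g, π g a = a → π g b = b → π g c = c → ∀ w ∈ W, ρ g w ∈ W := by
    rintro g h1 h2 h3 _ ⟨w, rfl⟩
    exact ⟨ρ g w, by simp [hc g h1 h2 h3]⟩
  have h1 : ∀ ω : k, ω ^ 2 + ω + 1 = 0 → W ⊓ t.eigenspace ω ≤ FX π ρ [a, b, c] := fun ω hω => by
    have h2 : 2 * finrank k (W ⊓ t.eigenspace ω : Submodule k V) ≤ finrank k V := by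
      have h2 := Submodule.finrank_mono (inf_le_right : W ⊓ t.eigenspace ω ≤ _)
      by_cases e : ω = 1
      · have h3 := Submodule.finrank_mono (inf_le_left : W ⊓ t.eigenspace ω ≤ _)
        have : finrank k W + finrank k (t.eigenspace ω) = finrank k V := by
          rw [End.eigenspace_def, e, one_smul]; exact (t - 1).finrank_range_add_finrank_ker
        omega
      obtain ⟨g, g1, g2, g3, -⟩ := h.exists_inv h0 [] (by simp; omega) (by simp) (by simp)
      have h3 : finrank k (t.eigenspace ω) ≤ finrank k (t.eigenspace (ω ^ 2)) := by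
        refine LinearMap.finrank_le_finrank_of_injective (f := (ρ g⁻¹).restrict fun v hv =>
          End.mem_eigenspace_iff.mpr ?_) fun v w e => Subtype.ext ?_
        · have := h.conj_tau h0 g
          rw [g1, g2, g3, ← h.tau_sq h0] at this
          rw [← rho_mul, show tau π a b c * g⁻¹ = g⁻¹ * (g * tau π a b c * g⁻¹) by group, this, rho_mul,
            rho_pow_of_eigen (End.mem_eigenspace_iff.mp hv), map_smul]
        · have : ρ g (ρ g⁻¹ v) = ρ g (ρ g⁻¹ w) := congrArg (fun x => ρ g x.1) e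
          simpa only [← rho_mul, mul_inv_cancel, map_one, End.one_apply] using this
      have := Submodule.finrank_add_finrank_le_of_disjoint ((End.eigenspaces_iSupIndep t).pairwiseDisjoint
        (show ω ≠ ω ^ 2 from fun e' => e (by linear_combination (ω - 1) * hω + (ω + 1) * e')))
      omega
    have := finrank_pos (R := k) (M := V)
    refine h.fix_or IH (l := [a, b, c]) hΩ (fun g hg w hw => ⟨hW g (hg _ (by simp)) (hg _ (by simp)) (hg _ (by simp)) w hw.1,
      End.mem_eigenspace_iff.mpr ?_⟩) (by omega) (by simp only [List.length_cons, List.length_nil]; omega)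
    rw [← hc g (hg _ (by simp)) (hg _ (by simp)) (hg _ (by simp)), End.mem_eigenspace_iff.mp hw.2, map_smul]
  obtain ⟨ω, hω⟩ := IsAlgClosed.exists_root (k := k) (Polynomial.X ^ 2 + Polynomial.X + 1) (by
    rw [Polynomial.degree_add_eq_left_of_degree_lt] <;> rw [Polynomial.degree_add_eq_left_of_degree_lt] <;> simp)
  simp only [Polynomial.IsRoot, Polynomial.eval_add, Polynomial.eval_pow, Polynomial.eval_X, Polynomial.eval_one] at hω
  have h2 : ∀ d e f, d ∉ [a, b, c] → e ∉ [a, b, c] → f ∉ [a, b, c] → D3 d e f → ∀ w ∈ W,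
      ρ (tau π d e f) w - w ∈ FX π ρ [a, b, c] := fun d e f hd he hf h3 w hw => by
    simp only [List.mem_cons, List.not_mem_nil, or_false, not_or] at hd he hf
    have h4 : ∀ x ∈ [a, b, c], π (tau π d e f) x = x := fun x hx => by
      rw [h.pi_tau h3]; simp at hx; apply c3_of_ne <;> grind
    have h5 := h4 a (by simp); have h6 := h4 b (by simp); have h7 := h4 c (by simp)
    refine h1 (-1 - ω) (by linear_combination hω) ⟨sub_mem (hW _ h5 h6 h7 w hw) hw, End.mem_eigenspace_iff.mpr ?_⟩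
    obtain ⟨u, rfl⟩ := hw
    have h8 := h1 ω hω (x := t ((t - 1) u) - (-1 - ω) • (t - 1) u) ⟨⟨t u - (-1 - ω) • u, by simp [smul_sub]; abel⟩,
      End.mem_eigenspace_iff.mpr (by
        simp only [LinearMap.sub_apply, End.one_apply, map_sub, map_smul, ht]
        linear_combination (norm := module) hω • (u - t u))⟩ d e f h3 (by simp [hd]) (by simp [he]) (by simp [hf])
    rw [map_sub, map_smul, hc _ h5 h6 h7] at h8
    rw [map_sub]
    linear_combination (norm := module) h8
  have hv : t v - v ∈ W := ⟨v, rfl⟩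
  generalize t v - v = w at hv
  have h3 : ∀ d e f x y z, D3 d e f → D3 x y z → (∀ i ∈ [d, e, f, x, y, z], i ∉ [a, b, c]) → ρ (tau π (c3 x y z d)
      (c3 x y z e) (c3 x y z f)) w = ρ (tau π d e f) w := fun d e f x y z h3 h4 h5 => by
    have h6 := h.rho_tau (ρ := ρ) (tau π x y z) h3 w
    rw [h.pi_tau h4] at h6
    have h7 := h2 _ _ _ (h5 d (by simp)) (h5 e (by simp)) (h5 f (by simp)) h3 w hv x y z h4 (h5 x (by simp))
      (h5 y (by simp)) (h5 z (by simp))
    have h9 : ∀ i, i ∉ [a, b, c] → c3 x y z i ∉ [a, b, c] := fun i hi h => hi (by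
      rwa [← (c3 x y z).injective (c3_of_ne (a := x) (b := y) (c := z) (fun e => h5 x (by simp) (e ▸ h))
        (fun e => h5 y (by simp) (e ▸ h)) fun e => h5 z (by simp) (e ▸ h))])
    have h8 := h2 _ _ _ (h5 x (by simp)) (h5 y (by simp)) (h5 z (by simp)) h4 w hv _ _ _ (h3.map (c3 x y z).injective)
      (h9 _ (h5 d (by simp))) (h9 _ (h5 e (by simp))) (h9 _ (h5 f (by simp)))
    rw [map_sub] at h7 h8
    linear_combination (norm := module) h6 + h7 - h8
  intro d e f h4 hd he hf
  obtain ⟨x, hx⟩ := exists_notMem [a, b, c, d, e, f] (by simp; omega)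
  obtain ⟨y, hy⟩ := exists_notMem [x, a, b, c, d, e, f] (by simp; omega)
  simp only [List.mem_cons, List.not_mem_nil, or_false, not_or] at hd he hf hx hy
  have h5 : D3 d e x := ⟨h4.ab, by grind, by grind⟩
  have h6 : D3 x d y := ⟨by grind, by grind, by grind⟩
  have h7 := h3 d e f d e x h4 h5 (by simp; grind)
  have h8 := h3 e x f x d y ⟨by grind, h4.bc, by grind⟩ h6 (by simp; grind)
  rw [c3_a h5, c3_b, c3_of_ne h4.ac.symm h4.bc.symm (by grind), ← h8, c3_a h6, c3_of_ne (by grind) h4.ab.symm (by grind),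
    c3_of_ne (by grind) h4.ac.symm (by grind), tau_rot h4.rot.swap, ← h.tau_sq h4, sq, rho_mul] at h7
  simpa only [← rho_mul, inv_mul_cancel_left, inv_mul_cancel, map_one, End.one_apply] using
    congrArg (ρ (tau π d e f)⁻¹) h7

theorem mainP (n : ℕ) : MainP.{u} n := by
  induction n using Nat.strong_induction_on with | _ n IH => ?_
  intro k V Ω H _ _ _ _ _ _ _ _ _ ρ π hn
  subst hn
  induction hm : Nat.card H using Nat.strong_induction_on generalizing H with | _ m IH2 => ?_
  subst hm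
  intro h hρ
  by_cases hS : ∀ S : Subgroup H, (∀ σ, Perm.sign σ = 1 → ∃ x ∈ S, π x = σ) → S = ⊤
  swap
  · push Not at hS
    obtain ⟨S, h1, h2⟩ := hS
    exact IH2 _ (Finite.card_subtype_lt (not_forall.mp (mt (eq_top_iff' S).mpr h2)).choose_spec) S (ρ.comp S.subtype)
      (π.comp S.subtype) rfl ⟨fun σ hσ => (h1 σ hσ).elim fun x hx => ⟨⟨x, hx.1⟩, hx.2⟩, fun x => h.even x, h.card⟩
      fun x => hρ x
  by_cases inj : Function.Injective ρ
  swap
  · refine IH2 _ ?_ (H ⧸ ρ.ker) (QuotientGroup.lift _ ρ le_rfl) (QuotientGroup.lift _ π hρ) rfl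
      ⟨fun σ hσ => (h.surj σ hσ).elim fun x hx => ⟨x, hx⟩, fun x => QuotientGroup.induction_on x h.even, h.card⟩
      fun x => QuotientGroup.induction_on x hρ
    have := (one_lt_card_iff_ne_bot _).mpr (mt ρ.ker_eq_bot_iff.mp inj)
    have h2 := Nat.card_pos (α := H ⧸ ρ.ker)
    rw [card_eq_card_quotient_mul_card_subgroup ρ.ker]
    nlinarith
  have hN : ∀ N : Subgroup H, N.Normal → (∀ x ∈ N, π x = 1) ∨ N = ⊤ := fun N _ => (h.normal N).imp_right (hS N)
  by_cases irr : ∀ U : Submodule k V, (∀ h, ∀ v ∈ U, ρ h v ∈ U) → U = ⊥ ∨ U = ⊤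
  swap
  · push Not at irr
    obtain ⟨U, hU, h1, h2⟩ := irr
    have h3 := U.finrank_quotient_add_finrank
    have h4 := Submodule.finrank_lt h2
    have h5 := Submodule.one_le_finrank_iff.mpr h1
    rcases hN (Representation.subrepresentation ρ U hU).ker inferInstance with h6 | h6
    · exact (IH _ h4 k U Ω H _ π rfl h h6).mono h4.le
    rcases hN (Representation.quotient ρ U hU).ker inferInstance with h7 | h7
    · exact (IH _ (by omega) k (V ⧸ U) Ω H _ π rfl h h7).mono (by omega)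
    have h8 : ∀ x y, Ann ρ x y := fun x y v => congrArg Subtype.val (LinearMap.congr_fun
      (MonoidHom.mem_ker.mp (h6.ge (mem_top x))) ⟨_, (Submodule.Quotient.eq U).mp (LinearMap.congr_fun
        (MonoidHom.mem_ker.mp (h7.ge (mem_top y))) (Submodule.Quotient.mk v))⟩)
    refine (h.not_comm fun x y => ?_).elim
    rw [commutatorElement_eq_one_iff_mul_comm.mpr (inj (LinearMap.ext fun v => ?_)), map_one]
    have h9 := h8 x y v
    have h10 := h8 y x v
    rw [map_sub] at h9 h10
    rw [rho_mul, rho_mul]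
    linear_combination (norm := module) h9 - h10
  haveI : Nontrivial V := by
    by_contra h1
    rw [not_nontrivial_iff_subsingleton] at h1
    exact h.not_comm fun x y => hρ _ (Subsingleton.elim _ _)
  by_cases hK : π.ker ≤ center H
  swap
  · exact .of_le (h.noncentral IH hS inj irr hK)
  have h1 : ARep π ρ := ⟨⟨h.surj, h.even, fun z hz g => (mem_center_iff.mp (hK hz) g).symm, h.card⟩, inj, irr⟩
  by_contra h2
  refine h2 (h1.bound_of_caseB ?_)
  have h3 : finrank k V < Fintype.card Ω - 1 := not_le.mp (mt Bd.of_le h2)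
  have h4 := h.card
  by_cases h12 : 12 ≤ Fintype.card Ω
  · exact h1.caseB_big IH h12 (by omega)
  by_cases h5 : ((5 : ℕ) : k) = 0
  swap
  · by_cases h10 : 10 ≤ Fintype.card Ω
    exacts [h1.caseB_ten h10 h5 (by omega), h1.caseB_five h5 (by omega)]
  by_cases h11 : 11 ≤ Fintype.card Ω
  · exact h1.caseB_seven h11 (fun e => one_ne_zero (α := k) (by push_cast at *; linear_combination 3 * h5 - 2 * e))
      (by omega)
  refine h1.caseB_three (fun e => one_ne_zero (α := k) (by push_cast at *; linear_combination 2 * e - h5)) ?_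
  by_contra h6
  have h7 : Fintype.card Ω = 10 := by omega
  exact h2 ⟨by omega, fun e => (e (by rw [h7]; push_cast at *; linear_combination 2 * h5)).elim⟩

end Cfsg.Agent.Lib.Forms
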