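import Cfsg.Agent.Lib.Forms.TriRep
import Cfsg.Agent.Lib.Forms.AltMain

/-! Normal 3-subgroups of small orthogonal groups with a 7-element are central. -/

set_option autoImplicit false

namespace Cfsg.Agent.Lib.Forms

open Module QuadraticMap Subgroup Cfsg.Agent.Lib.Core
open scoped commutatorElement

variable {k V : Type} [Field k] [IsAlgClosed k] [AddCommGroup V] [Module k V] [FiniteDimensional k V]
  {Q : QuadraticForm k V} {H : Type*} [Group H] [Finite H] {ρ : H →* End k V}

theorem PE.smul_eq {l : ℕ} (hl : l.Prime) {s : H} (h : PE l s) {X : Type*} [MulAction H X] {a : X} {d : ℕ}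
    (hd : ¬ l ∣ d) (h1 : s ^ d • a = a) : s • a = a := by
  obtain ⟨n, hn⟩ := h
  exact zpowers_le.mpr (show s ^ d ∈ MulAction.stabilizer H a from h1) (mem_zpowers_pow_iff.mpr
    (((hl.coprime_iff_not_dvd.mpr hd).symm.pow_right n).coprime_dvd_right (orderOf_dvd_of_pow_eq_one hn)))

theorem card_le_sq [Nontrivial V] (irr : ∀ U : Submodule k V, (∀ h, ∀ v ∈ U, ρ h v ∈ U) → U = ⊥ ∨ U = ⊤)
    (E : Subgroup H) (hc : ∀ x ∈ E, ∀ y ∈ E, ⁅x, y⁆ ∈ center H)
    (hz : ∀ x ∈ E, (∀ y ∈ E, ρ x * ρ y = ρ y * ρ x) → x ∈ center H) :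
    Nat.card (E.map (QuotientGroup.mk' (center H))) ≤ finrank k V * finrank k V := by
  have hq : ∀ x, QuotientGroup.mk' (center H) x = 1 ↔ x ∈ center H := fun x => QuotientGroup.eq_one_iff x
  choose s hs hs' using fun a : E.map (QuotientGroup.mk' (center H)) => mem_map.mp a.2
  choose! c hc' using fun z (hz : z ∈ center H) => exists_scalar irr hz
  haveI := Fintype.ofFinite (E.map (QuotientGroup.mk' (center H)))
  have h1 := mul_card_le_of_JE (fun e : E => LinearMap.mulLeftRight k (ρ e, ρ e⁻¹))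
    (Λ := E.map (QuotientGroup.mk' (center H))) (χ := fun a e => c ⁅e.1, s a⁆) (m := 1) (fun a b e => by
      rw [Subtype.ext_iff, ← hs', ← hs', eq_comm, ← inv_mul_eq_one, ← map_inv, ← map_mul, hq]
      refine hz _ (mul_mem (inv_mem (hs _)) (hs _)) fun y hy => ?_
      have : ρ ⁅y⁻¹, s a⁆ = ρ ⁅y⁻¹, s b⁆ := by
        rw [hc' _ (hc _ (inv_mem hy) _ (hs _)), hc' _ (hc _ (inv_mem hy) _ (hs _))]
        exact congrArg (· • 1) (congrFun e ⟨y⁻¹, inv_mem hy⟩)
      calc _ = ρ ((s b)⁻¹ * y) * ρ ⁅y⁻¹, s a⁆ * ρ (s a) := by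
            simp only [← map_mul, commutatorElement_def]; congr 1; group
        _ = _ := by rw [this]; simp only [← map_mul, commutatorElement_def]; congr 1; group) fun a => by
    refine Submodule.one_le_finrank_iff.mpr ((Submodule.ne_bot_iff _).mpr ⟨ρ (s a), mem_JE.mpr fun e => ?_,
      ((Group.isUnit _).map ρ).ne_zero⟩)
    rw [LinearMap.mulLeftRight_apply, ← smul_one_mul, ← hc' _ (hc _ e.2 _ (hs _)), ← map_mul, ← map_mul, ← map_mul]
    simp [commutatorElement_def]
  rwa [one_mul, finrank_linearMap, ← Nat.card_eq_fintype_card] at h1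

variable (hQ : Nondeg Q) (iso : ∀ h v, Q (ρ h v) = Q v) (inj : Function.Injective ρ) (h3 : ((3 : ℕ) : k) ≠ 0)
  (hV : finrank k V < 10) {K : Subgroup H} (hN : ∀ N : Subgroup H, N.Normal → N ≤ K ∨ N = ⊤) {s : H} (hs : s ∉ K)
  (hs7 : PE 7 s)
include hQ iso inj h3 hV hN hs hs7

theorem central_three_comm {E : Subgroup H} [E.Normal] (hE : IsPGroup 3 E) (hc : ∀ x y : E, Commute x y) :
    E ≤ center H := by
  letI : MulAction H E := MulAction.compHom E (MulAut.conjNormal (H := E))
  letI : MulAction H (E → k) := arrowAction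
  have h1 : ∀ (g : H) χ, ∀ v ∈ JE (fun x : E => ρ x) χ, ρ g v ∈ JE (fun x : E => ρ x) (g • χ) := fun g χ v hv =>
    mem_JE.mpr fun x => by
      rw [← map_smul, show (g • χ) x = χ (MulAut.conjNormal g⁻¹ x) from rfl, ← mem_JE.mp hv, ← rho_mul, ← rho_mul]
      simp [mul_assoc]
  have h2 : ∀ (g : H) χ, JE (fun x : E => ρ x) χ ≠ ⊥ → JE (fun x : E => ρ x) (g • χ) ≠ ⊥ := fun g χ hχ => by
    obtain ⟨v, hv, hv'⟩ := (Submodule.ne_bot_iff _).mp hχ
    refine (Submodule.ne_bot_iff _).mpr ⟨_, h1 g χ v hv, fun e => hv' ?_⟩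
    simpa [← rho_mul] using congrArg (ρ g⁻¹) e
  have h4 : ∀ χ, JE (fun x : E => ρ x) χ ≠ ⊥ → ∀ t : H, PE 7 t → (∀ e, χ e * (t • χ) e = 1) → χ = 1 := fun χ hχ t ht h => by
    have h4 : t • χ = χ⁻¹ := funext fun e => eq_inv_of_mul_eq_one_right (h e)
    have h5 := ht.smul_eq (by norm_num) (a := χ) (d := 2) (by norm_num) (by
      rw [pow_two, mul_smul, h4, show t • χ⁻¹ = (t • χ)⁻¹ from rfl, h4, inv_inv])
    obtain ⟨v, hv, hv'⟩ := (Submodule.ne_bot_iff _).mp hχ
    refine funext fun e => by_contra fun h6 => ?_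
    obtain ⟨n, hn⟩ := PE.of_mem hE e.2
    have := rho_pow_of_eigen (mem_JE.mp hv e) (3 ^ n)
    rw [hn, map_one] at this
    exact mul_self_ne_one (by decide) h6 (smul_left_injective k hv' (this.symm.trans (one_smul k v).symm))
      (by simpa [h5] using h e)
  have h5 : ∀ χ, JE (fun x : E => ρ x) χ ≠ ⊥ → s • χ = χ := fun χ hχ => by
    by_contra h5
    have h6 : Function.Injective fun i : Fin 5 => s ^ i.val • χ := by
      have : ∀ i j : Fin 5, i < j → s ^ i.val • χ ≠ s ^ j.val • χ := fun i j hij e => h5 (hs7.smul_eq (by norm_num)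
        (d := j - i) (by omega) (by
          rwa [← Nat.add_sub_cancel' (show i.val ≤ j from hij.le), pow_add, mul_smul, smul_left_cancel_iff, eq_comm] at e))
      exact fun i j e => le_antisymm (not_lt.mp fun h => this j i h e.symm) (not_lt.mp fun h => this i j h e)
    have h7 := sum_finrank_le_of_le (p := fun i : Fin 5 => JE (fun x : E => ρ x) (s ^ i.val • χ))
      ((iSupIndep_JE fun x : E => ρ x).comp h6) (le_iSup _)
    have h8 := two_mul_le_of_pairing (Q := Q) (D := ⨆ i : Fin 5, JE (fun x : E => ρ x) (s ^ i.val • χ)) le_top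
      (fun u hu v hv => by
        refine Submodule.iSup_induction _ (motive := fun u => polar Q u v = 0) hu (fun i u hu => ?_) (by simp)
          fun a b ha hb => by rw [polar_add_left, ha, hb, add_zero]
        refine Submodule.iSup_induction _ (motive := fun v => polar Q u v = 0) hv (fun j v hv => ?_) (by simp)
          fun a b ha hb => by rw [polar_add_right, ha, hb, add_zero]
        obtain ⟨e, he⟩ := not_forall.mp (mt (h4 _ (h2 (s ^ i.val) χ hχ) (s ^ j.val * (s ^ i.val)⁻¹)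
          (PE.of_mem hs7.isPGroup (mul_mem (npow_mem_zpowers ..) (inv_mem (npow_mem_zpowers ..))))) fun e => h5 (by
            rw [(smul_eq_iff_eq_inv_smul _).mp e]; rfl))
        exact polar_eq_zero_of_eigen (iso e) (mem_JE.mp hu e) (mem_JE.mp hv e) (by simpa [mul_smul] using he))
      fun u _ h => hQ.eq_zero fun v => h v trivial
    have h9 := Finset.card_nsmul_le_sum Finset.univ _ 1 fun (i : Fin 5) _ =>
      Submodule.one_le_finrank_iff.mpr (h2 (s ^ i.val) χ hχ)
    simp only [finrank_top, Function.comp_apply, Finset.card_univ, Fintype.card_fin, smul_eq_mul] at h7 h8 h9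
    omega
  have h6 := (hN (resHom (MulAction.toPermHom H (E → k)) (JE (fun x : E => ρ x) · ≠ ⊥) fun g χ =>
    ⟨fun h => by simpa using h2 g⁻¹ _ h, h2 g χ⟩).ker inferInstance).resolve_left fun h => hs (h (resHom_eq_one.mpr h5))
  obtain ⟨n, hn⟩ := hE.exists_card_eq
  refine fun x hx => mem_center_iff.mpr fun g => inj (sub_eq_zero.mp (eq_zero_of_JE (f := fun x : E => ρ x)
    (fun x y => (hc x y).map (ρ.comp E.subtype)) (l := Nat.card E) (by rw [hn, Nat.cast_pow]; exact pow_ne_zero _ h3)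
    (fun x => by rw [← map_pow, ← coe_pow, pow_card_eq_one', coe_one, map_one]) fun χ v hv => ?_))
  by_cases hχ : JE (fun x : E => ρ x) χ = ⊥
  · rw [(Submodule.eq_bot_iff _).mp hχ v hv, map_zero]
  have h7 := h1 g χ v hv
  rw [show g • χ = χ from resHom_eq_one.mp (h6.ge (mem_top g)) χ hχ] at h7
  rw [LinearMap.sub_apply, rho_mul, rho_mul, mem_JE.mp hv ⟨x, hx⟩, mem_JE.mp h7 ⟨x, hx⟩, map_smul, sub_self]

theorem central_three (hp : ⁅(⊤ : Subgroup H), (⊤ : Subgroup H)⁆ = ⊤) {R : Subgroup H} [R.Normal]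
    (hR : IsPGroup 3 R) : R ≤ center H := by
  by_contra hK
  obtain ⟨E, ⟨hE1, hE2, hE3⟩, hE4⟩ := (wellFounded_lt (α := Subgroup H)).has_min
    {E | E.Normal ∧ E ≤ R ∧ ¬ E ≤ center H} ⟨_, inferInstance, le_rfl, hK⟩
  have h2 : ∀ F : Subgroup H, F.Normal → F < E → F ≤ center H := fun F h1 h2 =>
    by_contra fun h3 => hE4 F ⟨h1, h2.le.trans hE2, h3⟩ h2
  have hE := hR.to_le hE2
  obtain ⟨x, hx⟩ := not_forall.mp (mt (central_three_comm hQ iso inj h3 hV hN hs hs7 hE) hE3)
  obtain ⟨y, hy⟩ := not_forall.mp hx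
  have h4 : ∀ x ∈ E, ∀ y ∈ E, ⁅x, y⁆ ∈ center H := by
    haveI := hE.isNilpotent
    haveI : Nontrivial E := (nontrivial_iff_ne_bot _).mpr fun e => hE3 (e ▸ bot_le)
    have h3 := map_subtype_lt_map_subtype.mpr (Group.IsSolvable.commutator_lt_top_of_nontrivial E)
    rw [map_subtype_commutator, ← MonoidHom.range_eq_map, range_subtype] at h3
    exact commutator_le.mp (h2 _ inferInstance h3)
  obtain ⟨c, h5, ⟨n, hn⟩, h6⟩ := exists_eigen_ne_one inj h3 (PE.of_mem hE ⁅x, y⁆.2)
    fun e => hy (commutatorElement_eq_one_iff_commute.mp (Subtype.ext e))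
  obtain ⟨U, ⟨a1, a2, a3⟩, a4⟩ := (wellFounded_lt (α := Submodule k V)).has_min
    {U | U ≠ ⊥ ∧ U ≤ (ρ ⁅x, y⁆.1).eigenspace c ∧ ∀ h, ∀ v ∈ U, ρ h v ∈ U} ⟨_, h6, le_rfl, fun g v hv =>
      End.mem_eigenspace_iff.mpr (by
        rw [← rho_mul, ← mem_center_iff.mp (show ⁅x, y⁆.1 ∈ _ from h4 _ x.2 _ y.2), rho_mul,
          End.mem_eigenspace_iff.mp hv, map_smul])⟩
  have h7 := hQ.two_mul_finrank_le_of_ts (U := U) fun u hu =>
    Q_eq_zero_of_eigen (iso _) (End.mem_eigenspace_iff.mp (a2 hu)) (mul_self_ne_one (by decide) h5 hn)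
  haveI := Submodule.nontrivial_iff_ne_bot.mpr a1
  let ρ' : H →* End k U := Representation.subrepresentation ρ U a3
  let f := ρ'.toHomUnits.rangeRestrict
  haveI := hE1.map f ρ'.toHomUnits.rangeRestrict_surjective
  have h8 := card_le_sq (ρ := ρ') (fun W hW => or_iff_not_imp_left.mpr fun h => by_contra fun h' => a4 (W.map U.subtype)
      ⟨by simpa using (Submodule.map_strictMono_of_injective U.subtype_injective (bot_lt_iff_ne_bot.mpr h)).ne', (Submodule.map_subtype_le _ _).trans a2, by rintro g _ ⟨v, hv, rfl⟩; exact ⟨_, hW g v hv, rfl⟩⟩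
      (by simpa using Submodule.map_strictMono_of_injective U.subtype_injective (lt_top_iff_ne_top.mpr h'))) E h4 fun z hz hz' =>
    h2 (E ⊓ (centralizer (E.map f : Set ρ'.toHomUnits.range)).comap f) inferInstance (lt_of_le_of_ne inf_le_left fun e => h5 (by
      obtain ⟨v, hv⟩ := exists_ne (0 : U)
      have h8 : ρ' ⁅x.1, y.1⁆ = 1 := congrArg (·.1.1) ((map_commutatorElement f _ _).trans
        (commutatorElement_eq_one_iff_mul_comm.mpr ((e.ge y.2).2 _ (mem_map_of_mem f x.2))))
      exact smul_left_injective k (show v.1 ≠ 0 by simpa using hv) ((End.mem_eigenspace_iff.mp (a2 v.2)).symm.trans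
        ((congrArg Subtype.val (LinearMap.congr_fun h8 v)).trans (one_smul k _).symm))))
      ⟨hz, by rintro _ ⟨y, hy, rfl⟩; exact Subtype.ext (Units.ext (hz' y hy).symm)⟩
  let q := QuotientGroup.mk' (center H)
  have hq : ∀ x, q x = 1 ↔ x ∈ center H := fun x => QuotientGroup.eq_one_iff x
  haveI := hE1.map q (QuotientGroup.mk'_surjective _)
  let φ := (MulAut.conjNormal (H := E.map q)).comp q
  have h9 : φ s = 1 := by
    letI : MulAction H (E.map q) := MulAction.compHom _ φ
    haveI := Fact.mk (show Nat.Prime 7 by norm_num)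
    have h9 := hs7.isPGroup.card_modEq_card_fixedPoints (E.map q)
    let F := (φ s).toMonoidHom.eqLocus (MonoidHom.id _)
    rw [show Nat.card (MulAction.fixedPoints (zpowers s) (E.map q)) = Nat.card F from Nat.card_congr (Equiv.setCongr
      (Set.ext fun a => ⟨fun h => h ⟨s, mem_zpowers s⟩, fun h g =>
        zpowers_le.mpr (show s ∈ MulAction.stabilizer H a from h) g.2⟩))] at h9
    obtain ⟨i, hi⟩ := (hE.map q).exists_card_eq
    obtain ⟨j, hj⟩ := ((hE.map q).to_subgroup F).exists_card_eq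
    have h10 := card_le_card_group F
    have h11 : i < 3 := (Nat.pow_lt_pow_iff_right (a := 3) (by norm_num)).mp (by rw [← hi]; nlinarith)
    have h12 : j ≤ i := (Nat.pow_le_pow_iff_right (a := 3) (by norm_num)).mp (by rwa [← hi, ← hj])
    have h13 : F = ⊤ := eq_top_of_card_eq _ (by
      rw [hi, hj] at h9 ⊢; interval_cases i <;> interval_cases j <;> first | rfl | exact absurd h9 (by decide))
    exact MulEquiv.ext fun a => h13.ge (mem_top a)
  have h10 := (hN φ.ker inferInstance).resolve_left fun h => hs (h h9)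
  refine hE3 ?_
  rw [← centralizer_univ, ← coe_top, ← commutator_eq_bot_iff_le_centralizer]
  refine Core.commutator_eq_bot_of_perfect hp ?_
  rw [commutator_eq_bot_iff_le_centralizer, coe_top, centralizer_univ, commutator_comm, commutator_le]
  intro g _ x hx
  have h4 : q g * q x * (q g)⁻¹ = q x := congrArg (fun f : MulAut (E.map q) => (f ⟨q x, mem_map_of_mem q hx⟩).1)
    (MonoidHom.mem_ker.mp (h10.ge (mem_top g)))
  rw [← hq, map_commutatorElement, commutatorElement_def, h4, mul_inv_cancel]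

end Cfsg.Agent.Lib.Forms
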