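import Cfsg.Agent.Lib.Forms.TriCen

/-! Alternating sections of triality-twisted groups. -/

set_option autoImplicit false
set_option maxHeartbeats 400000

namespace Cfsg.Agent.Lib.Forms

open Module QuadraticMap Subgroup Cfsg.Agent.Lib.Core Equiv
open scoped commutatorElement

section Lift

variable {H G : Type*} [Group H] [Finite H] [Group G] {π : H →* G} {l : ℕ} [hl : Fact l.Prime]

theorem exists_pow_PE (l : ℕ) [hl : Fact l.Prime] (y : H) : ∃ a, ¬ l ∣ a ∧ PE l (y ^ a) := by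
  obtain ⟨n, a, h1, h2⟩ := Nat.exists_eq_pow_mul_and_not_dvd (orderOf_pos y).ne' l hl.out.ne_one
  exact ⟨a, h1, n, by rw [← pow_mul, mul_comm, ← h2, pow_orderOf_eq_one]⟩

theorem exists_PE_lift {y : H} (h : π y ^ l = 1) : ∃ x ∈ zpowers y, π x = π y ∧ PE l x := by
  obtain ⟨a, h1, h2⟩ := exists_pow_PE l y
  obtain ⟨u, -, hu⟩ := Nat.exists_mul_mod_eq_one_of_coprime (hl.out.coprime_iff_not_dvd.mpr h1).symm hl.out.one_lt
  exact ⟨(y ^ a) ^ u, pow_mem (npow_mem_zpowers ..) _, by rw [← pow_mul, map_pow, pow_eq_pow_mod _ h, hu, pow_one],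
    PE.of_mem h2.isPGroup (npow_mem_zpowers ..)⟩

theorem exists_syl_lift (π : H →* G) (C : Subgroup H) {x : H} (hx : x ∈ C) (h : PE l x) :
    ∃ P : Subgroup H, IsPGroup l P ∧ x ∈ P ∧ P ≤ C ⊓ (zpowers (π x)).comap π ∧ ∀ R ≤ C ⊓ (zpowers (π x)).comap π,
      IsPGroup l R → ∃ κ ∈ C, π κ = 1 ∧ ∀ y ∈ R, κ * y * κ⁻¹ ∈ P := by
  obtain ⟨P, hP, h1⟩ := exists_isSyl_ge h.isPGroup (zpowers_le.mpr
    (show x ∈ C ⊓ (zpowers (π x)).comap π from ⟨hx, mem_zpowers _⟩))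
  refine ⟨P, hP.isPGroup, h1 (mem_zpowers x), hP.le, fun R h2 h3 => ?_⟩
  obtain ⟨m, ⟨h4, i, hi⟩, h5⟩ := hP.exists_conj_le h3 h2
  refine ⟨(x ^ i)⁻¹ * m, mul_mem (inv_mem (zpow_mem hx i)) h4, by simp [← hi], fun y hy => ?_⟩
  have h6 := h1 (zpow_mem_zpowers x i)
  simpa [mul_assoc] using mul_mem (mul_mem (inv_mem h6) (h5 (mem_map_of_mem _ hy))) h6

theorem exists_eigen_elt (hab : ∀ P : Subgroup H, IsPGroup l P → ∀ x y : P, Commute x y) {x₀ g₀ : H} {j : ℕ}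
    (h1 : π x₀ ^ l = 1) (h2 : π x₀ ≠ 1) (h3 : π g₀ * π x₀ * (π g₀)⁻¹ = π x₀ ^ j) :
    ∃ x g : H, x ≠ 1 ∧ x ^ l = 1 ∧ g * x * g⁻¹ = x ^ j := by
  obtain ⟨x, -, hx, h4⟩ := exists_PE_lift h1
  rw [← hx] at h2 h3
  obtain ⟨P, h5, h6, h7, h8⟩ := exists_syl_lift π ⊤ (mem_top x) h4
  have h9 : ∀ y ∈ P, π g₀ * π y * (π g₀)⁻¹ = π y ^ j := fun y hy => by
    obtain ⟨i, hi⟩ := (h7 hy).2
    rw [← hi, ← conj_zpow, h3, ← zpow_natCast, ← zpow_natCast, ← zpow_mul, ← zpow_mul, mul_comm]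
  obtain ⟨κ, -, h10, h11⟩ := h8 (P.map (MulAut.conj g₀).toMonoidHom) (by
    rintro _ ⟨y, hy, rfl⟩
    exact ⟨trivial, by simpa [h9 y hy] using pow_mem (h7 hy).2 j⟩) (h5.map _)
  have h12 : ∀ y ∈ P, κ * g₀ * y * (κ * g₀)⁻¹ ∈ P := fun y hy => by
    simpa [mul_assoc] using h11 _ (mem_map_of_mem _ hy)
  have h13 : ¬ Function.Injective fun y : P => (⟨_, mul_mem (h12 y y.2) (inv_mem (pow_mem y.2 j))⟩ : P) := fun h => by
    obtain ⟨y, hy⟩ := Finite.injective_iff_surjective.mp h ⟨x, h6⟩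
    exact h2 (by simp [← show _ = x from congrArg Subtype.val hy, h10, h9 y y.2])
  obtain ⟨y, y', h14, h15⟩ := Function.not_injective_iff.mp h13
  have h16 : κ * g₀ * (y'⁻¹ * y) * (κ * g₀)⁻¹ = (y'⁻¹ * y : H) ^ j := by
    have h16 := congrArg Subtype.val h14
    rw [coe_inv, Commute.mul_pow (show Commute y'.1 y.1 from (hab P h5 y' y).map P.subtype).inv_left, inv_pow]
    calc _ = (κ * g₀ * y' * (κ * g₀)⁻¹)⁻¹ * (κ * g₀ * y * (κ * g₀)⁻¹ * (y.1 ^ j)⁻¹) * y.1 ^ j := by group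
      _ = _ := by rw [show κ * g₀ * y * (κ * g₀)⁻¹ * (y.1 ^ j)⁻¹ = _ from h16]; group
  obtain ⟨n, hn⟩ := PE.of_mem h5 (mul_mem (inv_mem y'.2) y.2)
  have h17 : (y'⁻¹ * y : H) ≠ 1 := fun e => h15 (Subtype.ext (inv_mul_eq_one.mp e).symm)
  generalize (y'⁻¹ * y : H) = z at *
  have h18 := orderOf_pow_orderOf_div (orderOf_pos z).ne' (n := l) (by
    obtain ⟨i, -, hi⟩ := (Nat.dvd_prime_pow hl.out).mp (orderOf_dvd_of_pow_eq_one hn)
    exact hi ▸ dvd_pow_self l fun e => h17 (orderOf_eq_one_iff.mp (by rw [hi, e, pow_zero])))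
  exact ⟨z ^ (orderOf z / l), κ * g₀, fun e => hl.out.ne_one (by rw [← h18, e, orderOf_one]),
    by rw [← orderOf_dvd_iff_pow_eq_one, h18], by rw [← conj_pow, h16, ← pow_mul, ← pow_mul, mul_comm]⟩

variable (hZ : ∀ κ, π κ = 1 → PE l κ → κ ∈ center H)
include hZ

theorem exists_conj_lift (C : Subgroup H) {x x' : H} (hx : x ∈ C) (hx' : x' ∈ C) (h : PE l x) (h' : PE l x') {j : ℕ}
    (hj : π x' = π x ^ j) : ∃ κ ∈ C, π κ = 1 ∧ ∃ z ∈ center H, π z = 1 ∧ κ * x' * κ⁻¹ = z * x ^ j := by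
  obtain ⟨P, h1, h2, -, h3⟩ := exists_syl_lift π C hx h
  obtain ⟨κ, h4, h5, h6⟩ := h3 _ (zpowers_le.mpr (show x' ∈ _ from ⟨hx', by simp [hj]⟩)) h'.isPGroup
  have h7 : π (κ * x' * κ⁻¹ * (x ^ j)⁻¹) = 1 := by simp [h5, hj]
  exact ⟨κ, h4, h5, _, hZ _ h7 (PE.of_mem h1 (mul_mem (h6 _ (mem_zpowers _)) (inv_mem (pow_mem h2 j)))), h7, by simp⟩

theorem exists_comm_lift {t a b : H} (ht : PE l t) (ha : Commute (π a) (π t)) (hb : Commute (π b) (π t)) :
    ∃ n, Commute n t ∧ π n = ⁅π a, π b⁆ := by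
  have : ∀ a, Commute (π a) (π t) → ∃ a', π a' = π a ∧ ∃ z ∈ center H, a' * t = z * t * a' := fun a ha => by
    obtain ⟨κ, -, h1, z, hz, -, h2⟩ := exists_conj_lift hZ ⊤ trivial trivial ht (ht.conj a) (j := 1) (by simp [ha.eq])
    exact ⟨κ * a, by simp [h1], z, hz, by rw [← pow_one t, ← h2]; group⟩
  obtain ⟨a, h1, z, hz, h2⟩ := this a ha
  obtain ⟨b, h3, w, hw, h4⟩ := this b hb
  refine ⟨⁅a, b⁆, ?_, by simp [h1, h3]⟩
  have h5 : a * b * t = z * w * t * (a * b) := by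
    rw [mul_assoc, h4, mul_assoc, ← mul_assoc a, mem_center_iff.mp hw, mul_assoc w, ← mul_assoc a, h2,
      mem_center_iff.mp hw z]; group
  have h6 : b * a * t = z * w * t * (b * a) := by
    rw [mul_assoc, h2, mul_assoc, ← mul_assoc b, mem_center_iff.mp hz, mul_assoc z, ← mul_assoc b, h4]; group
  calc ⁅a, b⁆ * t = a * b * (z * w)⁻¹ * (b * a)⁻¹ * (z * w * t * (b * a)) * (b * a)⁻¹ := by
        rw [mul_assoc (a * b), ← mem_center_iff.mp (inv_mem (mul_mem hz hw)), commutatorElement_def]; group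
    _ = (z * w)⁻¹ * (a * b * t) * (b * a)⁻¹ := by rw [← h6, mem_center_iff.mp (inv_mem (mul_mem hz hw))]; group
    _ = _ := by rw [h5, commutatorElement_def]; group

end Lift

section Line

variable {k V : Type*} [Field k] [AddCommGroup V] [Module k V] {Q : QuadraticForm k V}

theorem sq_line {f : End k V} (hf : ∀ v, Q (f v) = Q v) {u w : V} (hu : Q u = 0) (hw : Q w = 0) (h : polar Q u w ≠ 0)
    (h1 : f u ∈ Submodule.span k {u, w}) (h2 : f w ∈ Submodule.span k {u, w}) : ∃ c : k, f (f u) = c • u := by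
  obtain ⟨a, b, h1⟩ := Submodule.mem_span_pair.mp h1
  obtain ⟨c, d, h2⟩ := Submodule.mem_span_pair.mp h2
  have h3 := hf u
  have h4 := hf w
  have h5 : polar Q (f u) (f w) = polar Q u w := by simp only [polar, ← map_add, hf]
  simp only [← h1, ← h2, Q_add, Q_smul, polar_add_left, polar_add_right, polar_smul_left, polar_smul_right, hu, hw,
    polar_self, polar_comm Q w u, smul_eq_mul] at h3 h4 h5
  by_cases hb : b = 0
  · exact ⟨a * a, by rw [← h1, hb, zero_smul, add_zero, map_smul, ← h1, hb, zero_smul, add_zero, smul_smul]⟩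
  have ha : a = 0 := by simpa [h, hb] using h3
  have hd : d = 0 := by
    by_contra hd
    have hc : c = 0 := by simpa [h, hd] using h4
    simp [ha, hc, h.symm] at h5
  exact ⟨b * c, by rw [← h1, ha, zero_smul, zero_add, map_smul, ← h2, hd, zero_smul, add_zero, smul_smul]⟩

theorem rho_comm_fix {H : Type*} [Group H] {ρ : H →* End k V} {a b : H} {u : V} (ha : ∃ c : k, ρ a u = c • u)
    (hb : ∃ c : k, ρ b u = c • u) : ρ ⁅a, b⁆ u = u := by
  obtain ⟨c, ha⟩ := ha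
  obtain ⟨d, hb⟩ := hb
  have h1 : ρ (b * a) u = (c * d) • u := by simp only [rho_mul, ha, hb, map_smul, smul_smul]
  have h2 : ρ ⁅a, b⁆ (ρ (b * a) u) = (c * d) • u := by
    rw [← rho_mul, show ⁅a, b⁆ * (b * a) = a * b by simp [commutatorElement_def]]
    simp only [rho_mul, ha, hb, map_smul, smul_smul, mul_comm]
  by_cases h : c * d = 0
  · have := congrArg (ρ (b * a)⁻¹) h1
    rw [← rho_mul, inv_mul_cancel, map_one, h, zero_smul, map_zero, End.one_apply] at this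
    rw [this, map_zero]
  · rwa [h1, map_smul, (smul_right_injective V h).eq_iff] at h2

end Line

theorem exists_pair {H G : Type*} [Group H] [Finite H] [Group G] {π : H →* G}
    (hZ : ∀ κ, π κ = 1 → PE 3 κ → κ ∈ center H) (J : Perm (Fin 8) →* G)
    (surj : ∀ σ, Perm.sign σ = 1 → ∃ g, π g = J σ) : ∃ t s g a b : H, t ^ 3 = 1 ∧ Commute t (s * t * s⁻¹) ∧
      Commute g t ∧ g * (s * t * s⁻¹) * g⁻¹ = (s * t * s⁻¹) ^ 2 ∧ Commute a t ∧ Commute b t ∧ π t = J (c3 0 1 2) ∧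
      π (s * t * s⁻¹) = J (c3 3 4 5) ∧ π ⁅a ^ 2, b ^ 2⁆ = J (c3 3 4 5) := by
  obtain ⟨x, hx⟩ := surj (c3 0 1 2) (by decide +kernel)
  obtain ⟨x, -, h1, h2⟩ := exists_PE_lift (π := π) (l := 3) (y := x) (by rw [hx, ← map_pow, ← map_one J]; exact congrArg J (by decide +kernel))
  rw [← h1] at hx
  obtain ⟨g, hg⟩ := surj (swap 1 2 * swap 6 7) (by decide +kernel)
  obtain ⟨κ, -, h3, z, hz, h4, h5⟩ := exists_conj_lift hZ ⊤ trivial trivial h2 (h2.conj g) (j := 2) (by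
    simp only [map_mul, map_inv, hx, hg, ← map_pow]; simp only [← map_mul, ← map_inv]; exact congrArg J (by decide +kernel))
  have h6 : π (κ * g) = J (swap 1 2 * swap 6 7) := by rw [map_mul, h3, hg, one_mul]
  replace h5 : κ * g * x * (κ * g)⁻¹ = z * x ^ 2 := by rw [← h5]; group
  clear hg h3
  generalize κ * g = g at h5 h6
  have hc : ∀ {z}, z ∈ center H → ∀ y, Commute z y := fun hz y => (mem_center_iff.mp hz y).symm
  have h7 : (z * x) ^ 3 = 1 := by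
    have h7 := congrArg (· ^ 3) h5
    have h8 := hZ (x ^ 3) (by rw [map_pow, hx, ← map_pow, ← map_one J]; exact congrArg J (by decide +kernel))
      (PE.of_mem h2.isPGroup (npow_mem_zpowers ..))
    simp only [conj_pow, ← (hc h8 g).eq, mul_inv_cancel_right, (hc hz _).mul_pow, ← pow_mul] at h7
    rw [(hc hz _).mul_pow, ← mul_left_inj (x ^ 3), one_mul, mul_assoc, ← pow_add, ← h7]
  have h8 : g * (z * x) * g⁻¹ = (z * x) ^ 2 := by
    rw [(hc hz _).mul_pow, ← mul_assoc, ← (hc hz g).eq, mul_assoc z, mul_assoc z, h5, pow_two z, mul_assoc]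
  have h9 : π (z * x) = J (c3 0 1 2) := by rw [map_mul, h4, hx, one_mul]
  generalize z * x = t at h7 h8 h9
  have ht : PE 3 t := ⟨1, h7⟩
  have cov : ∀ α β : Perm (Fin 8), Perm.sign α = 1 ∧ Perm.sign β = 1 ∧ α * c3 0 1 2 = c3 0 1 2 * α ∧
      β * c3 0 1 2 = c3 0 1 2 * β → ∃ n, Commute n t ∧ π n = J ⁅α, β⁆ := fun α β ⟨h1, h2, h3, h4⟩ => by
    obtain ⟨a, ha⟩ := surj α h1
    obtain ⟨b, hb⟩ := surj β h2
    have := exists_comm_lift hZ ht (a := a) (b := b) (by rw [ha, h9]; exact Commute.map h3 J)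
      (by rw [hb, h9]; exact Commute.map h4 J)
    rwa [ha, hb, ← map_commutatorElement] at this
  obtain ⟨y, a1, a2⟩ := cov (c3 3 4 6) (c3 3 5 7) (by decide +kernel)
  obtain ⟨g', a3, a4⟩ := cov (c3 4 5 6) (c3 4 5 7) (by decide +kernel)
  obtain ⟨a, a5, a6⟩ := cov (c3 3 4 6) (c3 5 7 6) (by decide +kernel)
  obtain ⟨b, a7, a8⟩ := cov (c3 3 4 5) (c3 4 7 6) (by decide +kernel)
  obtain ⟨y, b1, b2, b3⟩ := exists_PE_lift (π := π) (l := 3) (y := y) (by rw [a2, ← map_pow, ← map_one J]; exact congrArg J (by decide +kernel))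
  obtain ⟨s, hs⟩ := surj (swap 0 3 * swap 1 4 * swap 2 5 * swap 6 7) (by decide +kernel)
  have b4 : π (s * t * s⁻¹) = J (c3 3 4 5) := by
    simp only [map_mul, map_inv, hs, h9]; simp only [← map_mul, ← map_inv]; exact congrArg J (by decide +kernel)
  obtain ⟨κ, -, b5, w, hw, -, b6⟩ := exists_conj_lift hZ ⊤ trivial trivial b3 (ht.conj s) (j := 1) (by
    rw [b4, b2, a2, pow_one]; exact congrArg J (by decide +kernel))
  have b7 : π (κ * s) = J (swap 0 3 * swap 1 4 * swap 2 5 * swap 6 7) := by rw [map_mul, b5, hs, one_mul]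
  have b8 : π (κ * s * t * (κ * s)⁻¹) = J (c3 3 4 5) := by simp [← b4, b5]
  have b9 : Commute t (κ * s * t * (κ * s)⁻¹) := by
    obtain ⟨i, rfl⟩ := b1
    rw [show κ * s * t * (κ * s)⁻¹ = κ * (s * t * s⁻¹) * κ⁻¹ by group, b6, pow_one]
    exact (hc hw t).symm.mul_right (a1.symm.zpow_right i)
  clear b6 b5 b4 hs
  generalize κ * s = s at *
  have c1 : ∀ {y}, Commute y t → y ∈ centralizer {t} := fun h => mem_centralizer_singleton_iff.mpr h
  obtain ⟨κ, c2, c3', z, hz, -, c4⟩ := exists_conj_lift hZ (centralizer {t}) (c1 b9.symm)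
    (mul_mem (mul_mem (c1 a3) (c1 b9.symm)) (inv_mem (c1 a3))) (ht.conj s) ((ht.conj s).conj g') (j := 2) (by
      simp only [map_mul π g', map_mul π _ g'⁻¹, map_inv, b8, a4, ← map_pow]; simp only [← map_mul, ← map_inv]
      exact congrArg J (by decide +kernel))
  refine ⟨t, s, κ * g', a, b, h7, b9, (show Commute κ t from mem_centralizer_singleton_iff.mp c2).mul_left a3, ?_, a5, a7,
    h9, b8, by rw [map_commutatorElement, map_pow, map_pow, a6, a8, ← map_pow, ← map_pow, ← map_commutatorElement]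
               exact congrArg J (by decide +kernel)⟩
  replace c4 : κ * g' * (s * t * s⁻¹) * (κ * g')⁻¹ = z * (s * t * s⁻¹) ^ 2 := by rw [← c4]; group
  have c5 : π ((s * g * s⁻¹)⁻¹ * (κ * g')) = 1 := by
    simp only [map_mul, map_inv, b7, h6, c3', a4, one_mul]; simp only [← map_mul, ← map_inv]
    rw [← map_one J]; exact congrArg J (by decide +kernel)
  have c6 : (s * g * s⁻¹)⁻¹ * (κ * g') * (s * t * s⁻¹) * ((s * g * s⁻¹)⁻¹ * (κ * g'))⁻¹ = z * (s * t * s⁻¹) := by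
    calc _ = (s * g * s⁻¹)⁻¹ * (κ * g' * (s * t * s⁻¹) * (κ * g')⁻¹) * (s * g * s⁻¹) := by group
      _ = _ := by rw [c4, conj_pow, ← h8, ← mul_assoc _ z, ← (hc hz _).eq]; group
  have c7 : (s * t * s⁻¹) ^ 3 = 1 := by simp [h7]
  rw [c4, mul_eq_right]
  generalize (s * g * s⁻¹)⁻¹ * (κ * g') = u at c5 c6
  generalize s * t * s⁻¹ = t at c6 c7
  obtain ⟨n, c8, c9⟩ := exists_pow_PE 3 u
  have d1 : ∀ n : ℕ, u ^ n * t * (u ^ n)⁻¹ = z ^ n * t := fun n => by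
    induction n with
    | zero => simp
    | succ n ih =>
      calc _ = u * (u ^ n * t * (u ^ n)⁻¹) * u⁻¹ := by group
        _ = _ := by rw [ih, ← mul_assoc, ← (hc (pow_mem hz n) u).eq, mul_assoc, mul_assoc, ← mul_assoc u, c6]; group
  have d2 := d1 n
  rw [(hc (hZ _ (by simp [c5]) c9) t).eq, mul_inv_cancel_right, eq_comm, mul_eq_right] at d2
  have d3 := congrArg (· ^ 3) c6
  simp only [conj_pow, c7, (hc hz t).mul_pow, mul_one, mul_inv_cancel] at d3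
  exact (pow_eq_one_iff_of_coprime ((Nat.prime_three.coprime_iff_not_dvd).mpr c8)).mp ⟨d3.symm, d2⟩

variable {k V : Type} [Field k] [IsAlgClosed k] [AddCommGroup V] [Module k V] [FiniteDimensional k V]
  {Q : QuadraticForm k V} {C : SymComp Q} {H : Type*} [Group H] [Finite H] {ρ ρ₁ ρ₂ : H →* End k V}

theorem TRep.not_seven (h : TRep C ρ ρ₁ ρ₂) (h5 : ((5 : ℕ) : k) ≠ 0) {G : Type*} [Group G] {π : H →* G}
    {J : Perm (Fin 7) →* G} (hJ : Function.Injective J) (surj : ∀ σ, Perm.sign σ = 1 → ∃ g, π g = J σ) : False := by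
  haveI := factFive
  obtain ⟨x, hx⟩ := surj (swap 0 4 * swap 0 3 * swap 0 2 * swap 0 1) (by decide +kernel)
  obtain ⟨g, hg⟩ := surj (swap 1 3 * swap 1 4 * swap 1 2 * swap 5 6) (by decide +kernel)
  obtain ⟨y, g', h1, h2, h3⟩ := exists_eigen_elt (π := π) (l := 5) (j := 2) (x₀ := x) (g₀ := g)
    (fun P => comm_of_dim C.nondeg h.iso h.inj h5 (by decide +kernel) (by rw [h.dim]; norm_num))
    (by rw [hx, ← map_pow, ← map_one J]; exact congrArg J (by decide +kernel)) (by rw [hx, Ne, map_eq_one_iff _ hJ]; decide +kernel)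
    (by rw [hx, hg, ← map_pow, ← map_inv, ← map_mul, ← map_mul]; exact congrArg J (by decide +kernel))
  exact h1 (h.five h5 h2 h3)

theorem TRep.not_eight_aux (h : TRep C ρ ρ₁ ρ₂) (h3 : ((3 : ℕ) : k) ≠ 0) {G : Type*} [Group G] {π : H →* G}
    {J : Perm (Fin 8) →* G} (hJ : Function.Injective J) (surj : ∀ σ, Perm.sign σ = 1 → ∃ g, π g = J σ)
    (hZ : ∀ κ, π κ = 1 → PE 3 κ → κ ∈ center H) : False := by
  obtain ⟨t, s, g, a, b, h1, h2, h4, h5, h6, h7, h8, h9, h10⟩ := exists_pair hZ J surj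
  obtain ⟨ζ, hζ⟩ := exists_prim 3 h3
  have a1 : (s * t * s⁻¹) ^ 3 = 1 := by simp [h1]
  have a2 : finrank k (En ρ (s * t * s⁻¹) ζ (0 : ZMod 3)) = finrank k (En ρ t ζ (0 : ZMod 3)) :=
    le_antisymm ((EJ_conj' s⁻¹ _).trans_eq (by rw [show s⁻¹ * (s * t * s⁻¹) * s⁻¹⁻¹ = t by group]))
      (EJ_conj' (d := fun _ : Unit => t) s _)
  generalize s * t * s⁻¹ = u at *
  have hc : ∀ i j, Commute (![t, u] i) (![t, u] j) := by
    simp only [Fin.forall_fin_two]; exact ⟨⟨.refl _, h2⟩, h2.symm, .refl _⟩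
  have hp : ∀ i, ![t, u] i ^ 3 = 1 := by simp only [Fin.forall_fin_two]; exact ⟨h1, a1⟩
  have a3 := EJ_sum hζ (ρ := ρ) hc hp
  have a4 : finrank k (En ρ t ζ (0 : ZMod 3)) = _ := EJ_refine hζ (ρ := ρ) hc hp (t := t) (· 0) (fun a v hv => mem_En.mpr (mem_EJ.mp hv 0)) 0
  have a5 : finrank k (En ρ u ζ (0 : ZMod 3)) = _ := EJ_refine hζ (ρ := ρ) hc hp (t := u) (· 1) (fun a v hv => mem_En.mpr (mem_EJ.mp hv 1)) 0
  have a6 : finrank k (En ρ (t * u) ζ (0 : ZMod 3)) = _ := EJ_refine hζ (ρ := ρ) hc hp (t := t * u) (fun a => a 0 + a 1) (fun a v hv => mem_En.mpr (by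
    rw [rho_mul, show ρ u v = _ from mem_EJ.mp hv 1, map_smul, show ρ t v = _ from mem_EJ.mp hv 0, smul_smul,
      pow_val_add hζ, mul_comm])) 0
  have a7 := h.three hζ h1 fun e => by rw [e, map_one, eq_comm, map_eq_one_iff _ hJ] at h8; exact absurd h8 (by decide +kernel)
  have a8 := h.three hζ (x := t * u) (by rw [h2.mul_pow, h1, a1, mul_one]) fun e => by
    have := congrArg π e
    rw [map_mul, h8, h9, ← map_mul, map_one, map_eq_one_iff _ hJ] at this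
    exact absurd this (by decide +kernel)
  have a9 := EJ_dual hζ hc hp C.nondeg h.iso
  have a10 := EJ_conj hζ (ρ := ρ) (d := ![t, u]) (g := g) id ![1, 2] (by
    simp only [Fin.forall_fin_two]; exact ⟨(mul_inv_eq_iff_eq_mul.mpr h4.eq).trans (pow_one t).symm, h5⟩)
  let n : ZMod 3 → ZMod 3 → ℕ := fun i j => finrank k (EJ ρ ![t, u] ζ ![i, j])
  have b0 : ∀ a : Fin 2 → ZMod 3, finrank k (EJ ρ ![t, u] ζ a) = n (a 0) (a 1) := fun a => by
    rw [show a = ![a 0, a 1] from funext (by simp [Fin.forall_fin_two])]; rfl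
  simp only [b0, Finset.sum_filter] at a3 a4 a5 a6 a9 a10
  have b1 : ∀ f : ZMod 3 → ZMod 3 → ℕ, ∑ a : Fin 2 → ZMod 3, f (a 0) (a 1) =
      f 0 0 + f 0 1 + f 0 2 + (f 1 0 + f 1 1 + f 1 2) + (f 2 0 + f 2 1 + f 2 2) := fun f => by
    rw [← (piFinTwoEquiv fun _ => ZMod 3).symm.sum_comp, Fintype.sum_prod_type]
    exact (Fin.sum_univ_three _).trans (congrArg₂ _ (congrArg₂ _ (Fin.sum_univ_three _) (Fin.sum_univ_three _))
      (Fin.sum_univ_three _))
  rw [b1 n, h.dim] at a3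
  rw [b1 fun i j => if i = 0 then n i j else 0] at a4
  rw [b1 fun i j => if j = 0 then n i j else 0] at a5
  rw [b1 fun i j => if i + j = 0 then n i j else 0] at a6
  have b2 : n 0 1 = n 0 2 := a9 ![0, 1]
  have b3 : n 1 0 = n 2 0 := a9 ![1, 0]
  have b4 : n 1 1 = n 2 2 := a9 ![1, 1]
  have b5 : n 1 2 = n 2 1 := a9 ![1, 2]
  have b6 : n 1 1 ≤ n 1 2 := a10 ![1, 1]
  have b7 : n 1 2 ≤ n 1 1 := a10 ![1, 2]
  simp +decide only [if_true, if_false, add_zero, zero_add] at a4 a5 a6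
  have b8 : n 0 1 = 1 ∧ finrank k (En ρ t ζ (0 : ZMod 3)) = 2 := by omega
  obtain ⟨v, hv, hv'⟩ := (Submodule.ne_bot_iff _).mp (Submodule.one_le_finrank_iff.mp b8.1.ge)
  obtain ⟨w, hw, hw'⟩ : ∃ w ∈ EJ ρ ![t, u] ζ (-![0, 1]), polar Q v w ≠ 0 := by
    by_contra! h'
    exact hv' (EJ_nondeg hζ hc hp C.nondeg h.iso hv h')
  have c1 : ρ t v = v := by simpa using mem_EJ.mp hv 0
  have c2 : ρ u v = ζ • v := (mem_EJ.mp hv 1).trans (congrArg (· • v) (pow_one ζ))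
  have c3 : ρ t w = w := by simpa using mem_EJ.mp hw 0
  have c4 : ρ u w = ζ ^ 2 • w := mem_EJ.mp hw 1
  have c5 : ∀ n, ¬ 3 ∣ n → ζ ^ n ≠ 1 := fun n hn => mt (hζ.pow_eq_one_iff_dvd n).mp hn
  have c6 := Q_eq_zero_of_eigen (h.iso u) c2 (by rw [← pow_two]; exact c5 2 (by norm_num))
  have c7 := Q_eq_zero_of_eigen (h.iso u) c4 (by rw [← pow_add]; exact c5 4 (by norm_num))
  have c8 : Submodule.span k {v, w} = En ρ t ζ (0 : ZMod 3) := Submodule.eq_of_le_of_finrank_eq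
    (Submodule.span_le.mpr (by rintro _ (rfl | rfl) <;> simp [mem_En, c1, c3])) (by
      rw [b8.2, finrank_span_pair (li_pair_of_ne hv' fun c hc => hw' (by rw [hc, polar_smul_right, polar_self, c6]; simp))])
  have c9 : ∀ a, Commute a t → ∀ x, ρ t x = x → ρ a x ∈ Submodule.span k {v, w} := fun a ha x hx => by
    rw [c8, mem_En, ← rho_mul, ← ha.eq, rho_mul, hx]; simp
  have d1 : ∀ a, Commute a t → (∃ c : k, ρ (a ^ 2) v = c • v) ∧ ∃ c : k, ρ (a ^ 2) w = c • w := fun a ha => by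
    rw [pow_two]; simp only [rho_mul]
    exact ⟨sq_line (h.iso a) c6 c7 hw' (c9 a ha v c1) (c9 a ha w c3), sq_line (h.iso a) c7 c6 (by rwa [polar_comm])
      (Set.pair_comm v w ▸ c9 a ha w c3) (Set.pair_comm v w ▸ c9 a ha v c1)⟩
  have d2 := rho_inv_fix (rho_comm_fix (d1 a h6).1 (d1 b h7).1)
  have d3 := rho_inv_fix (rho_comm_fix (d1 a h6).2 (d1 b h7).2)
  have d4 : π (⁅a ^ 2, b ^ 2⁆⁻¹ * u) = 1 := by rw [map_mul, map_inv, h10, h9, inv_mul_cancel]
  have d5 : ρ (⁅a ^ 2, b ^ 2⁆⁻¹ * u) v = ζ • v := by rw [rho_mul, c2, map_smul, d2]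
  have d6 : ρ (⁅a ^ 2, b ^ 2⁆⁻¹ * u) w = ζ ^ 2 • w := by rw [rho_mul, c4, map_smul, d3]
  generalize ⁅a ^ 2, b ^ 2⁆⁻¹ * u = κ at d4 d5 d6
  obtain ⟨m, d7, d8⟩ := exists_pow_PE 3 κ
  have d9 := mem_center_iff.mp (hZ _ (by simp [d4]) d8) g⁻¹
  obtain ⟨x, y, e1⟩ := Submodule.mem_span_pair.mp (c9 _ h4.inv_left v c1)
  have e2 : ρ u (ρ g⁻¹ v) = ζ ^ 2 • ρ g⁻¹ v := by
    rw [← rho_mul, show u * g⁻¹ = g⁻¹ * (g * u * g⁻¹) by group, h5, rho_mul, rho_pow_of_eigen c2, map_smul]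
  have e3 : ρ (κ ^ m) (ρ g⁻¹ v) = ζ ^ m • ρ g⁻¹ v := by rw [← rho_mul, ← d9, rho_mul, rho_pow_of_eigen d5, map_smul]
  have e4 := polar_eq_zero_of_eigen (h.iso u) e2 c4 (by rw [← pow_add]; exact c5 4 (by norm_num))
  have e5 := polar_eq_zero_of_eigen (h.iso _) e3 (rho_pow_of_eigen d5 m) (by rw [← pow_add]; exact c5 _ (by omega))
  simp only [← e1, polar_add_left, polar_smul_left, polar_self, c6, c7, polar_comm Q w v] at e4 e5
  have e6 : ρ g⁻¹ v = 0 := by rw [← e1, show x = 0 by simpa [hw'] using e4, show y = 0 by simpa [hw'] using e5]; simp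
  exact hv' (by simpa [← rho_mul] using congrArg (ρ g) e6)

theorem TRep.comp {H' : Type*} [Group H'] (h : TRep C ρ ρ₁ ρ₂) (f : H' →* H) (hf : Function.Injective f) :
    TRep C (ρ.comp f) (ρ₁.comp f) (ρ₂.comp f) :=
  ⟨h.dim, fun _ => h.iso _, fun _ => h.iso₁ _, fun _ => h.iso₂ _, fun _ => h.rel _, h.inj.comp hf,
    h.tw.imp fun _ h => h.imp fun _ h => ⟨h.1, fun _ => h.2.1 _, fun _ => h.2.2 _⟩⟩

theorem TRep.not_eight (h : TRep C ρ ρ₁ ρ₂) (h3 : ((3 : ℕ) : k) ≠ 0) {r : ℕ} (hr : 8 ≤ r)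
    {π : H →* alternatingGroup (Fin r)} (hπ : Function.Surjective π) : False := by
  induction hm : Nat.card H using Nat.strong_induction_on generalizing H with | _ m IH => ?_
  subst hm
  have hS : ∀ S : Subgroup H, S.map π = ⊤ → S = ⊤ := fun S h1 => by_contra fun h2 =>
    IH _ (Finite.card_subtype_lt (not_forall.mp (mt (eq_top_iff' S).mpr h2)).choose_spec) (h.comp S.subtype
      S.subtype_injective) (π := π.comp S.subtype) (fun σ => (h1.ge (mem_top σ)).elim fun x hx => ⟨⟨x, hx.1⟩, hx.2⟩) rfl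
  haveI := alternatingGroup.isSimpleGroup (α := Fin r) (by simp; omega)
  have hN : ∀ N : Subgroup H, N.Normal → N ≤ π.ker ∨ N = ⊤ := fun N hN =>
    (hN.map π hπ).eq_bot_or_eq_top.imp (Subgroup.map_eq_bot_iff _).mp (hS N)
  let e : Fin 8 ↪ Fin r := Fin.castLEEmb hr
  have surj : ∀ σ, Perm.sign σ = 1 → ∃ g, (alternatingGroup _).subtype.comp π g = Jp e σ := fun σ hσ =>
    (hπ ⟨_, (sign_Jp e σ).trans hσ⟩).imp fun _ h => congrArg Subtype.val h
  refine h.not_eight_aux h3 (Perm.viaEmbeddingHom_injective e) surj fun κ h1 h2 => ?_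
  obtain ⟨s, hs⟩ := surj (swap 0 6 * swap 0 5 * swap 0 4 * swap 0 3 * swap 0 2 * swap 0 1) (by decide +kernel)
  haveI := Fact.mk (show Nat.Prime 7 by norm_num)
  obtain ⟨s, -, h4, h5⟩ := exists_PE_lift (π := (alternatingGroup _).subtype.comp π) (l := 7) (y := s) (by
    rw [hs, ← map_pow, ← map_one (Jp e)]; exact congrArg _ (by decide +kernel))
  obtain ⟨R, hR, h6⟩ := exists_isSyl_ge h2.isPGroup (zpowers_le.mpr (show κ ∈ π.ker from Subtype.ext h1))
  haveI : R.Normal := normalizer_eq_top_iff.mp (hS _ (by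
    rw [← MonoidHom.range_eq_top.mpr hπ, MonoidHom.range_eq_map, ← hR.frattini_sup le_top (normalizer_eq_top_iff.mpr inferInstance).ge, Subgroup.map_sup,
      (Subgroup.map_eq_bot_iff _).mpr le_rfl, bot_sup_eq, top_inf_eq]))
  refine central_three C.nondeg h.iso h.inj h3 (by rw [h.dim]; norm_num) hN (fun h6 => ?_) h5 (hS _ ?_) hR.isPGroup
    (h6 (mem_zpowers κ))
  · rw [hs, MonoidHom.comp_apply, MonoidHom.mem_ker.mp h6, map_one, eq_comm,
      map_eq_one_iff _ (Perm.viaEmbeddingHom_injective e)] at h4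
    exact absurd h4 (by decide +kernel)
  · rw [map_commutator, ← MonoidHom.range_eq_map, MonoidHom.range_eq_top.mpr hπ]
    exact commutator_alternatingGroup_eq_top (by simp; omega)

theorem TRep.bound (h : TRep C ρ ρ₁ ρ₂) (p : ℕ) [Fact p.Prime] [CharP k p] {r : ℕ}
    {π : H →* alternatingGroup (Fin r)} (hπ : Function.Surjective π) : r ≤ 6 + (if p = 5 then 1 else 0) := by
  by_contra! h1
  split_ifs at h1 with h2
  · subst h2
    exact h.not_eight (mt (CharP.cast_eq_zero_iff k 5 3).mp (by norm_num)) h1 hπ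
  · exact h.not_seven (mt (CharP.cast_eq_zero_iff k p 5).mp fun h => h2
      ((Nat.prime_dvd_prime_iff_eq Fact.out Nat.prime_five).mp h)) (π := (alternatingGroup _).subtype.comp π)
      (Perm.viaEmbeddingHom_injective (Fin.castLEEmb h1)) fun σ hσ =>
      (hπ ⟨_, (sign_Jp _ σ).trans hσ⟩).imp fun _ h => congrArg Subtype.val h

end Cfsg.Agent.Lib.Forms
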