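import Cfsg.Agent.Lib.Forms.QuadF2
import Cfsg.Agent.Lib.Forms.QuadOmega
import Cfsg.Agent.Lib.GL.OrthConj
import Cfsg.Agent.Lib.Invol.CoxeterA

/-! Symmetric groups generated by reflections in orthogonal groups over the field of two elements. -/

set_option autoImplicit false

namespace Cfsg.Agent.Lib.Forms

open Module QuadraticMap Cfsg.Agent.Lib.GL.OrthConj Cfsg.Agent.Lib.Invol

variable {V W : Type*} [AddCommGroup V] [Module (ZMod 2) V] [AddCommGroup W] [Module (ZMod 2) W]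

/-- A chain of nonsingular vectors with Dynkin diagram `A_n`. -/
structure AChain (Q : QuadraticForm (ZMod 2) V) (v : ℕ → V) (n : ℕ) : Prop where
  one : ∀ i, i < n → Q (v i) = 1
  zero : ∀ i j, i + 1 < j → j < n → polar Q (v i) (v j) = 0
  adj : ∀ i, i + 1 < n → polar Q (v i) (v (i + 1)) = 1

theorem AChain.map {Q : QuadraticForm (ZMod 2) V} {Q' : QuadraticForm (ZMod 2) W} {v : ℕ → V} {n : ℕ}
    (h : AChain Q v n) (φ : V ≃ₗ[ZMod 2] W) (hφ : ∀ x, Q' (φ x) = Q x) : AChain Q' (fun i => φ (v i)) n :=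
  ⟨fun i hi => by rw [hφ, h.one i hi], fun i j h1 h2 => by rw [polar_map_of_isom φ hφ, h.zero i j h1 h2],
    fun i hi => by rw [polar_map_of_isom φ hφ, h.adj i hi]⟩

theorem refl_apply_f2 {Q : QuadraticForm (ZMod 2) V} {u : V} (hu : Q u = 1) (x : V) :
    (refl Q u).1 x = x + polar Q x u • u := by
  rw [refl_apply, hu, inv_one, one_mul, sub_eq_add_neg, ← neg_smul, ZMod.neg_eq_self_mod_two]

theorem AChain.exists_hom {Q : QuadraticForm (ZMod 2) V} {v : ℕ → V} {n : ℕ} (h : AChain Q v n) (hn : 4 ≤ n) :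
    ∃ φ : Equiv.Perm (Fin (n + 1)) →* OG Q, Function.Injective φ ∧
      ∀ i : Fin n, φ (Equiv.swap i.castSucc i.succ) = refl Q (v i) := by
  have h2 : ∀ x : V, x + x = 0 := fun x => by
    rw [← two_smul (ZMod 2), show (2 : ZMod 2) = 0 from rfl, zero_smul]
  have hc : CoxRel (fun i => refl Q (v i)) n := by
    refine ⟨fun i _ => refl_mul_self _, fun i j h1 h2 => ?_, fun i hi => ?_⟩
    · have := conj_refl (refl Q (v i)) (v j)
      rw [refl_of_polar_eq_zero (by rw [polar_comm, h.zero i j h1 h2])] at this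
      exact mul_inv_eq_iff_eq_mul.mp this
    · have h1 := conj_refl (refl Q (v i)) (v (i + 1))
      have h3 := conj_refl (refl Q (v (i + 1))) (v i)
      rw [refl_inv, refl_apply_f2 (h.one _ (by omega))] at h1 h3
      rw [h1, h3, polar_comm, h.adj i hi, one_smul, one_smul, add_comm]
  obtain ⟨φ, hφ⟩ := exists_hom_perm_of_coxRel hc
  refine ⟨φ, ?_, hφ⟩
  rw [← MonoidHom.ker_eq_bot_iff]
  by_contra hne
  have h3 := Equiv.Perm.alternatingGroup_le_of_normal (by simp; omega)
    ((Subgroup.nontrivial_iff_ne_bot φ.ker).mpr hne)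
  have h4 : φ (Equiv.swap (⟨0, by omega⟩ : Fin n).castSucc (⟨0, by omega⟩ : Fin n).succ *
      Equiv.swap (⟨1, by omega⟩ : Fin n).castSucc (⟨1, by omega⟩ : Fin n).succ) = 1 := by
    refine h3 ?_
    rw [Equiv.Perm.mem_alternatingGroup, map_mul, Equiv.Perm.sign_swap (Fin.castSucc_lt_succ).ne,
      Equiv.Perm.sign_swap (Fin.castSucc_lt_succ).ne]
    simp
  rw [map_mul, hφ, hφ, mul_eq_one_iff_eq_inv, refl_inv] at h4
  have h5 := congrArg (fun g : OG Q => g.1 (v 1)) h4
  simp only [refl_apply_f2 (h.one 0 (by omega)), refl_apply_f2 (h.one 1 (by omega))] at h5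
  rw [polar_comm, h.adj 0 (by omega), polar_self', show (2 : ZMod 2) = 0 from rfl, zero_mul, zero_smul,
    one_smul, add_right_inj] at h5
  have := h.one 0 (by omega)
  rw [h5, map_zero] at this
  exact zero_ne_one this

theorem tp_eq_csum {α : Type*} [Fintype α] (q : α → ZMod 2) : tp q = ∑ x, chi2 (q x) := by
  classical
  simp only [tp, cntQ, Nat.card_eq_fintype_card, Fintype.card_subtype, Finset.card_filter]
  push_cast
  rw [← Finset.sum_sub_distrib]
  refine Finset.sum_congr rfl fun x _ => ?_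
  rcases zmod2_cases (q x) with h | h <;> simp [h, chi2]

/-- The chain vectors in coordinates. -/
def chainV (m : ℕ) (i : ℕ) : Fin m ⊕ Fin m → ZMod 2 :=
  Sum.elim (fun a => if i = 2 * a ∨ i = 2 * a + 2 then 1 else 0) (fun a => if i = 2 * a + 1 then 1 else 0)

/-- The twisting vector. -/
def chainW (m : ℕ) : Fin m ⊕ Fin m → ZMod 2 := Sum.elim (fun _ => 1) (fun a => if a.1 % 2 = 0 then 1 else 0)

theorem sum_ite_fin (m : ℕ) (P : ℕ → Prop) [DecidablePred P] (c : ℕ) (hP : ∀ a, a < m → (P a ↔ a = c)) (hc : c < m) :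
    ∑ a : Fin m, (if P a then (1 : ZMod 2) else 0) = 1 := by
  rw [Finset.sum_eq_single ⟨c, hc⟩]
  · rw [if_pos ((hP c hc).mpr rfl)]
  · intro b _ hb
    rw [if_neg fun h => hb (Fin.ext ((hP b b.2).mp h))]
  · simp

theorem exists_chain (k : ℕ) : ∃ Q : QuadraticForm (ZMod 2) (Fin (2 * k + 1) ⊕ Fin (2 * k + 1) → ZMod 2),
    Nondeg Q ∧ tp Q = (-1) ^ (k + 1) * 2 ^ (2 * k + 1) ∧ AChain Q (chainV _) (4 * k + 3) ∧
      ∀ v, Q v = qPlus _ _ v + polar (qPlus _ _) v (chainW _) := by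
  obtain ⟨Q, hQ, hp⟩ := exists_quad_of_polar (qPlus (2 * k + 1) (ZMod 2))
    (fun v => qPlus _ _ v + polar (qPlus _ _) v (chainW _)) (fun u v => by
      rw [Q_add, polar_add_left]; ring)
  have key : ∀ i j, polar Q (chainV _ i) (chainV _ j) = ∑ a : Fin (2 * k + 1),
      if ((i = 2 * a ∨ i = 2 * a + 2) ∧ j = 2 * a + 1) ∨ (i = 2 * a + 1 ∧ (j = 2 * a ∨ j = 2 * a + 2)) then 1 else 0 := by
    intro i j
    rw [hp, polar_qPlus]
    refine Finset.sum_congr rfl fun a _ => ?_
    simp only [chainV, Sum.elim_inl, Sum.elim_inr]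
    split_ifs <;> first | rfl | omega
  refine ⟨Q, nondeg_of fun x hx => (nondeg_qPlus _).eq_zero fun v => hp x v ▸ hx v, ?_, ⟨?_, ?_, ?_⟩,
    fun v => congrFun hQ v⟩
  · rw [tp_eq_csum, hQ]
    have := csum_add_polar (qPlus (2 * k + 1) (ZMod 2)) (chainW _)
    rw [csum_qPlus] at this
    refine this.trans ?_
    congr 1
    have h1 : ∀ k : ℕ, ∑ a ∈ Finset.range (2 * k + 1), (if a % 2 = 0 then (1 : ZMod 2) else 0) = (k + 1 : ℕ) := by
      intro k
      induction k with
      | zero => decide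
      | succ k ih =>
        rw [show 2 * (k + 1) + 1 = 2 * k + 1 + 1 + 1 by ring, Finset.sum_range_succ, Finset.sum_range_succ, ih,
          if_neg (by omega), if_pos (by omega)]
        push_cast; ring
    rw [qPlus_apply]
    simp only [chainW, Sum.elim_inl, Sum.elim_inr, one_mul]
    rw [Fin.sum_univ_eq_sum_range (fun a => if a % 2 = 0 then (1 : ZMod 2) else 0), h1]
    generalize k + 1 = l
    induction l with
    | zero => simp [chi2]
    | succ l ih => rw [Nat.cast_succ, chi2_add, ih, chi2_one, pow_succ]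
  · intro i hi
    rw [hQ]
    simp only [qPlus_apply, polar_qPlus, ← Finset.sum_add_distrib]
    rw [← sum_ite_fin (2 * k + 1) (fun a => i = 2 * a + 1 ∨ ((i = 2 * a ∨ i = 2 * a + 2) ∧ a % 2 = 0))
      (if i % 2 = 1 then i / 2 else 2 * (i / 4)) (fun a ha => by split_ifs <;> omega) (by split_ifs <;> omega)]
    refine Finset.sum_congr rfl fun a _ => ?_
    simp only [chainV, chainW, Sum.elim_inl, Sum.elim_inr]
    split_ifs <;> first | rfl | omega
  · intro i j h1 h2
    rw [key]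
    exact Finset.sum_eq_zero fun a _ => if_neg (by omega)
  · intro i hi
    rw [key]
    exact sum_ite_fin (2 * k + 1) (fun a => ((i = 2 * a ∨ i = 2 * a + 2) ∧ i + 1 = 2 * a + 1) ∨
      (i = 2 * a + 1 ∧ (i + 1 = 2 * a ∨ i + 1 = 2 * a + 2))) (i / 2) (fun a ha => by omega) (by omega)

end Cfsg.Agent.Lib.Forms
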