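import Cfsg.Agent.Lib.Forms.AltCover

/-! Modules for covers of alternating groups on which disjoint 3-cycles annihilate each other. -/

set_option autoImplicit false

namespace Cfsg.Agent.Lib.Forms

open Equiv Module

variable {Ω : Type} [Fintype Ω] [DecidableEq Ω] {H : Type*} [Group H] {k V : Type*} [Field k] [AddCommGroup V]
  [Module k V]

/-- A faithful irreducible module for a central extension of an alternating group. -/
structure ARep (π : H →* Perm Ω) (ρ : H →* End k V) : Prop extends ACov π where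
  inj : Function.Injective ρ
  irr : ∀ U : Submodule k V, (∀ h, ∀ v ∈ U, ρ h v ∈ U) → U = ⊥ ∨ U = ⊤

/-- Vectors fixed by all 3-cycles avoiding `l`. -/
def FX (π : H →* Perm Ω) (ρ : H →* End k V) (l : List Ω) : Submodule k V where
  carrier := {v | ∀ a b c, D3 a b c → a ∉ l → b ∉ l → c ∉ l → ρ (tau π a b c) v = v}
  add_mem' hu hv a b c h h1 h2 h3 := by rw [map_add, hu a b c h h1 h2 h3, hv a b c h h1 h2 h3]
  zero_mem' a b c _ _ _ _ := map_zero _
  smul_mem' t v hv a b c h h1 h2 h3 := by rw [map_smul, hv a b c h h1 h2 h3]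

/-- Vectors behaving like `e_a - e_b`. -/
def FY (π : H →* Perm Ω) (ρ : H →* End k V) (a b : Ω) : Submodule k V where
  carrier := {v | v ∈ FX π ρ [a, b] ∧ ∀ c, D3 a b c → v + ρ (tau π a b c) v + ρ (tau π a c b) v = 0}
  add_mem' {u v} hu hv := ⟨add_mem hu.1 hv.1, fun c h => by
    rw [map_add, map_add]; linear_combination (norm := module) hu.2 c h + hv.2 c h⟩
  zero_mem' := ⟨zero_mem _, fun c _ => by simp⟩
  smul_mem' t v hv := ⟨Submodule.smul_mem _ _ hv.1, fun c h => by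
    rw [map_smul, map_smul, ← smul_add, ← smul_add, hv.2 c h, smul_zero]⟩

/-- Disjoint 3-cycles annihilate each other. -/
def CaseB (π : H →* Perm Ω) (ρ : H →* End k V) : Prop :=
  ∀ a b c, D3 a b c → ∀ v, ρ (tau π a b c) v - v ∈ FX π ρ [a, b, c]

variable {π : H →* Perm Ω} {ρ : H →* End k V}

omit [Fintype Ω] [DecidableEq Ω] in
theorem rho_mul (ρ : H →* End k V) (g h : H) (v : V) : ρ (g * h) v = ρ g (ρ h v) := by rw [map_mul]; rfl

omit [Fintype Ω] [DecidableEq Ω] in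
theorem rho_inv_fix {g : H} {v : V} (h : ρ g v = v) : ρ g⁻¹ v = v := by
  conv_lhs => rw [← h, ← rho_mul, inv_mul_cancel, map_one]
  rfl

omit [Fintype Ω] in
theorem FX_mono {l l' : List Ω} {v : V} (hv : v ∈ FX π ρ l) (h : ∀ x ∈ l, x ∈ l') : v ∈ FX π ρ l' :=
  fun a b c h0 h1 h2 h3 => hv a b c h0 (mt (h a) h1) (mt (h b) h2) (mt (h c) h3)

theorem FY_symm {a b : Ω} {v : V} (hv : v ∈ FY π ρ a b) : v ∈ FY π ρ b a :=
  ⟨FX_mono hv.1 (by simp), fun c h => by
    rw [tau_rot h, tau_rot h.swap, tau_rot h.swap.rot, add_right_comm]; exact hv.2 c h.swap.rot.rot⟩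

namespace ACov

variable (h : ACov π)
include h

theorem rho_tau (g : H) {a b c : Ω} (habc : D3 a b c) (v : V) :
    ρ (tau π (π g a) (π g b) (π g c)) (ρ g v) = ρ g (ρ (tau π a b c) v) := by
  rw [← h.conj_tau habc, ← rho_mul, ← rho_mul, inv_mul_cancel_right]

theorem FX_map (g : H) {l l' : List Ω} {v : V} (hv : v ∈ FX π ρ l) (hl : ∀ x ∈ l, π g x ∈ l') : ρ g v ∈ FX π ρ l' := by
  intro a b c h0 h1 h2 h3
  obtain ⟨a, rfl⟩ := (π g).surjective a
  obtain ⟨b, rfl⟩ := (π g).surjective b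
  obtain ⟨c, rfl⟩ := (π g).surjective c
  have h4 : D3 a b c := ⟨fun e => h0.ab (e ▸ rfl), fun e => h0.ac (e ▸ rfl), fun e => h0.bc (e ▸ rfl)⟩
  rw [h.rho_tau g h4, hv a b c h4 (mt (hl a) h1) (mt (hl b) h2) (mt (hl c) h3)]

theorem FY_map (g : H) {a b : Ω} {v : V} (hv : v ∈ FY π ρ a b) : ρ g v ∈ FY π ρ (π g a) (π g b) := by
  refine ⟨h.FX_map g hv.1 (by simp), fun c h0 => ?_⟩
  obtain ⟨c, rfl⟩ := (π g).surjective c
  have h4 : D3 a b c := ⟨fun e => h0.ab (e ▸ rfl), fun e => h0.ac (e ▸ rfl), fun e => h0.bc (e ▸ rfl)⟩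
  rw [h.rho_tau g h4, h.rho_tau g h4.swap, ← map_add, ← map_add, hv.2 c h4, map_zero]

theorem FX_ext {l : List Ω} (hl : l.length + 5 ≤ Fintype.card Ω) {i x y : Ω} {v : V} (hv : v ∈ FX π ρ (i :: l))
    (h0 : D3 i x y) (hx : x ∉ l) (hy : y ∉ l) (h1 : ρ (tau π i x y) v = v) : v ∈ FX π ρ l := by
  have step : ∀ x y x', D3 i x y → D3 i x' y → x ∉ l → x' ∉ l → ρ (tau π i x y) v = v → ρ (tau π i x' y) v = v := by
    intro x y x' h0 h0' hx hx' h1
    by_cases e : x = x'; · rwa [← e]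
    obtain ⟨z, hz⟩ := exists_notMem (i :: x :: x' :: y :: l) (by simp; omega)
    simp only [List.mem_cons, not_or] at hz
    have h2 : D3 x x' z := ⟨e, Ne.symm hz.2.1, Ne.symm hz.2.2.1⟩
    have h3 := hv x x' z h2 (by simp [h0.ab.symm, hx]) (by simp [h0'.ab.symm, hx']) (by simp [hz])
    have h4 := h.rho_tau (ρ := ρ) (tau π x x' z) h0 v
    rwa [h1, h3, h.pi_tau h2, c3_a h2, c3_of_ne h0.ab h0'.ab (Ne.symm hz.1),
      c3_of_ne h0.bc.symm h0'.bc.symm (Ne.symm hz.2.2.2.1)] at h4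
  have sw : ∀ x y, D3 i x y → ρ (tau π i x y) v = v → ρ (tau π i y x) v = v := fun x y h0 h1 =>
    h.tau_inv h0 ▸ rho_inv_fix h1
  have all : ∀ x' y', D3 i x' y' → x' ∉ l → y' ∉ l → ρ (tau π i x' y') v = v := fun x' y' h0' hx' hy' => by
    by_cases e : x' = y
    · subst e
      exact sw _ _ h0'.swap (step _ _ _ h0 h0'.swap hx hy' h1)
    · have h2 : D3 i x' y := ⟨h0'.ab, h0.ac, e⟩
      exact sw _ _ h0'.swap (step _ _ _ h2.swap h0'.swap hy hy' (sw _ _ h2 (step _ _ _ h0 h2 hx hx' h1)))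
  intro a b c h2 ha hb hc
  by_cases e1 : a = i; · subst e1; exact all b c h2 hb hc
  by_cases e2 : b = i; · subst e2; exact tau_rot (π := π) h2 ▸ all c a h2.rot hc ha
  by_cases e3 : c = i; · subst e3; exact tau_rot (π := π) h2.rot.rot ▸ all a b h2.rot.rot ha hb
  exact hv a b c h2 (by simp [e1, ha]) (by simp [e2, hb]) (by simp [e3, hc])

theorem FX_inter {l : List Ω} (hl : l.length + 5 ≤ Fintype.card Ω) {i j : Ω} {v : V} (hv : v ∈ FX π ρ (i :: l))
    (hv' : v ∈ FX π ρ (j :: l)) (hij : i ≠ j) (hi : i ∉ l) : v ∈ FX π ρ l := by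
  obtain ⟨x, hx⟩ := exists_notMem (i :: j :: l) (by simp; omega)
  obtain ⟨y, hy⟩ := exists_notMem (x :: i :: j :: l) (by simp; omega)
  simp only [List.mem_cons, not_or] at hx hy
  have h0 : D3 i x y := ⟨Ne.symm hx.1, Ne.symm hy.2.1, Ne.symm hy.1⟩
  exact h.FX_ext hl hv h0 hx.2.2 hy.2.2.2 (hv' i x y h0 (by simp [hij, hi]) (by simp [hx]) (by simp [hy]))

theorem mem_FY {a b c : Ω} (h0 : D3 a b c) {w : V} (hw : ρ (tau π a b c) w - w ∈ FX π ρ [a, b]) :
    ρ (tau π a b c) w - w ∈ FY π ρ a b := by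
  have h1 : (ρ (tau π a b c) w - w) + ρ (tau π a b c) (ρ (tau π a b c) w - w) +
      ρ (tau π a c b) (ρ (tau π a b c) w - w) = 0 := by
    rw [map_sub, map_sub, ← rho_mul, ← rho_mul, ← sq, h.tau_sq h0, ← h.tau_inv h0, inv_mul_cancel, map_one]
    simp
  generalize ρ (tau π a b c) w - w = v at *
  refine ⟨hw, fun d hd => ?_⟩
  by_cases e : c = d; · rwa [← e]
  obtain ⟨z, hz⟩ := exists_notMem [a, b, c, d] (by have := h.card; simp; omega)
  simp only [List.mem_cons, not_or] at hz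
  have h2 : D3 c d z := ⟨e, Ne.symm hz.2.2.1, Ne.symm hz.2.2.2.1⟩
  have h3 := hw c d z h2 (by simp [h0.ac.symm, h0.bc.symm]) (by simp [hd.ac.symm, hd.bc.symm]) (by simp [hz])
  have h4 := congrArg (ρ (tau π c d z)) h1
  rwa [map_add, map_add, ← h.rho_tau _ h0, ← h.rho_tau _ h0.swap, h3, map_zero, h.pi_tau h2, c3_a h2,
    c3_of_ne h0.ac hd.ac (Ne.symm hz.1), c3_of_ne h0.bc hd.bc (Ne.symm hz.2.1)] at h4

end ACov

namespace ARep

variable (h : ARep π ρ)
include h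

theorem exists_move {a b c : Ω} (h0 : D3 a b c) : ∃ v, ρ (tau π a b c) v - v ≠ 0 := by
  by_contra! h1
  have : tau π a b c = 1 := h.inj (by ext v; simpa [sub_eq_zero] using h1 v)
  have h2 := h.pi_tau h0
  rw [this, map_one] at h2
  exact h0.ab ((DFunLike.congr_fun h2 a).trans (c3_a h0))

theorem FX_nil {v : V} (hv : v ∈ FX π ρ []) : v = 0 := by
  rcases h.irr (FX π ρ []) (fun g v hv => h.FX_map g hv (by simp)) with h1 | h1
  · simpa [h1] using hv
  · obtain ⟨e⟩ : Nonempty (Fin 3 ↪ Ω) := Function.Embedding.nonempty_of_card_le (by have := h.card; simp; omega)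
    have h0 : D3 (e 0) (e 1) (e 2) := (by decide : D3 (0 : Fin 3) 1 2).map e.injective
    obtain ⟨w, hw⟩ := h.exists_move h0
    exact absurd (sub_eq_zero.mpr ((h1 ▸ Submodule.mem_top : w ∈ FX π ρ []) _ _ _ h0 (by simp) (by simp) (by simp))) hw

theorem FY_eq_zero {a b x y : Ω} {v : V} (hv : v ∈ FY π ρ a b) (hab : a ≠ b) (h0 : D3 b x y) (hx : x ≠ a) (hy : y ≠ a)
    (h1 : ρ (tau π b x y) v = v) : v = 0 := by
  have hc := h.card
  have h2 : v ∈ FX π ρ [a] := h.FX_ext (by simp; omega) (FY_symm hv).1 h0 (by simpa) (by simpa) h1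
  obtain ⟨c, hc1⟩ := exists_notMem [a, b] (by simp; omega)
  obtain ⟨d, hd⟩ := exists_notMem [a, b, c] (by simp; omega)
  obtain ⟨e, he⟩ := exists_notMem [a, b, c, d] (by simp; omega)
  simp only [List.mem_cons, not_or] at hc1 hd he
  have h3 : D3 a b c := ⟨hab, Ne.symm hc1.1, Ne.symm hc1.2.1⟩
  have h4 : D3 a d e := ⟨Ne.symm hd.1, Ne.symm he.1, Ne.symm he.2.2.2.1⟩
  have h5 := h.FX_map (tau π a b c) h2 (l' := [b]) (by simp [h.pi_tau h3, c3_a h3]) a d e h4 (by simpa) (by simp [hd])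
    (by simp [he])
  have h6 := h.FX_map (tau π a c b) h2 (l' := [c]) (by simp [h.pi_tau h3.swap, c3_a h3.swap]) a d e h4
    (by simp [h3.ac]) (by simp [hd]) (by simp [he])
  have h7 := congrArg (ρ (tau π a d e)) (hv.2 c h3)
  rw [map_add, map_add, h5, h6, map_zero, ← hv.2 c h3, add_left_inj, add_left_inj] at h7
  exact h.FX_nil (h.FX_ext (by simp; omega) h2 h4 (by simp) (by simp) h7)

theorem exists_FY (hB : CaseB π ρ) {a b : Ω} (hab : a ≠ b) : ∃ v ∈ FY π ρ a b, v ≠ 0 := by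
  have hc := h.card
  have step : ∀ a b b', a ≠ b → a ≠ b' → (∃ v ∈ FY π ρ a b, v ≠ 0) → ∃ v ∈ FY π ρ a b', v ≠ 0 := by
    rintro a b b' h1 h2 ⟨v, hv, hv'⟩
    by_cases e : b = b'; · exact ⟨v, e ▸ hv, hv'⟩
    obtain ⟨c, hc1⟩ := exists_notMem [a, b, b'] (by simp; omega)
    simp only [List.mem_cons, not_or] at hc1
    have h3 : D3 b b' c := ⟨e, Ne.symm hc1.2.1, Ne.symm hc1.2.2.1⟩
    have h4 := h.FY_map (tau π b b' c) hv
    rw [h.pi_tau h3, c3_a h3, c3_of_ne h1 h2 (Ne.symm hc1.1)] at h4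
    refine ⟨_, h4, fun h5 => hv' ?_⟩
    simpa [← rho_mul] using congrArg (ρ (tau π b b' c)⁻¹) h5
  have sy : ∀ a b, (∃ v ∈ FY π ρ a b, v ≠ 0) → ∃ v ∈ FY π ρ b a, v ≠ 0 := fun a b ⟨v, hv, hv'⟩ => ⟨v, FY_symm hv, hv'⟩
  by_contra hne
  have h1 : ∀ x y, x ≠ y → ∀ v ∈ FY π ρ x y, v = 0 := fun x y hxy v hv => by
    by_contra h1
    by_cases e : x = b
    · subst e; exact hne (sy _ _ (step _ _ _ hxy hab.symm ⟨v, hv, h1⟩))
    · exact hne (sy _ _ (step _ _ _ (Ne.symm e) hab.symm (sy _ _ (step _ _ _ hxy e ⟨v, hv, h1⟩))))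
  obtain ⟨e⟩ : Nonempty (Fin 7 ↪ Ω) := Function.Embedding.nonempty_of_card_le (by simp; omega)
  have he := fun i j => e.injective.eq_iff (a := i) (b := j)
  have d : ∀ i j l, D3 i j l → D3 (e i) (e j) (e l) := fun i j l h => h.map e.injective
  have d2 := d 0 1 2 (by decide)
  have d3 := d 0 1 3 (by decide)
  set s := tau π (e 0) (e 1) (e 2) with hs
  set t := tau π (e 0) (e 1) (e 3) with ht
  have h2 : ρ (s * t * s * t) = 1 := by
    obtain ⟨w, hw⟩ := h.exists_move (d 4 5 6 (by decide))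
    have h2 := hB _ _ _ (d 4 5 6 (by decide)) w
    have h3 := h.cent (s * t * s * t) (by
      simp only [map_mul, hs, ht, h.pi_tau d2, h.pi_tau d3]
      rw [← Jp_c3 e (by decide), ← Jp_c3 e (by decide), ← map_mul, ← map_mul, ← map_mul, ← map_one (Jp e)]
      congr 1; decide)
    refine sub_eq_zero.mp (LinearMap.ker_eq_top.mp ((h.irr _ fun g v hv => ?_).resolve_left
      ((Submodule.ne_bot_iff _).mpr ⟨_, ?_, hw⟩)))
    · rw [LinearMap.mem_ker, LinearMap.sub_apply, sub_eq_zero] at hv ⊢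
      rw [← rho_mul, (h3 g).eq, rho_mul, hv]; rfl
    · rw [LinearMap.mem_ker, LinearMap.sub_apply, sub_eq_zero, rho_mul, rho_mul, rho_mul,
        h2 _ _ _ d3 (by simp [he]) (by simp [he]) (by simp [he]), h2 _ _ _ d2 (by simp [he]) (by simp [he]) (by simp [he]),
        h2 _ _ _ d3 (by simp [he]) (by simp [he]) (by simp [he]), h2 _ _ _ d2 (by simp [he]) (by simp [he]) (by simp [he])]
      rfl
  have d4 := d 4 5 3 (by decide)
  obtain ⟨v, hv⟩ := h.exists_move d4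
  have h3 := hB _ _ _ d4 v
  refine hv (h1 _ _ d4.ab _ (h.mem_FY d4 ?_))
  generalize ρ (tau π (e 4) (e 5) (e 3)) v - v = w at *
  have h4 : ρ s w = w := h3 _ _ _ d2 (by simp [he]) (by simp [he]) (by simp [he])
  have h5 : ρ s (ρ t w) = ρ t (ρ t w) := by
    have h5 : s * t * s = t * t := by
      rw [← sq, ht, h.tau_sq d3, ← h.tau_inv d3, eq_inv_iff_mul_eq_one]
      exact h.inj (h2.trans (map_one ρ).symm)
    rw [← rho_mul ρ t, ← h5, rho_mul, rho_mul, h4]
  have h6 : ρ s (ρ t w - w) - (ρ t w - w) = ρ t (ρ t w) - ρ t w := by rw [map_sub, h5, h4]; abel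
  have h7 := h1 _ _ d2.ab _ (h.mem_FY d2 (w := ρ t w - w) (h.FX_inter (i := e 2) (j := e 3) (by simp; omega)
    (FX_mono (hB _ _ _ d2 _) (by simp)) (h6 ▸ FX_mono (hB _ _ _ d3 _) (by simp)) (by simp [he]) (by simp [he])))
  rw [h6, sub_eq_zero] at h7
  have h8 : ρ t w = w := by simpa only [← rho_mul, inv_mul_cancel_left, inv_mul_cancel, map_one, End.one_apply] using congrArg (ρ t⁻¹) h7
  exact h.FX_ext (i := e 3) (by simp; omega) (FX_mono h3 (by simp)) d3.rot.rot (by simp [he]) (by simp [he])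
    (tau_rot (π := π) d3.rot.rot ▸ h8)

section Rel

variable {o : Ω} {g : Ω → V} (h1 : ∀ i, i ≠ o → g i ∈ FY π ρ o i) (h2 : g o = 0) (h3 : ∑ i, g i = 0)
include h1 h2 h3

theorem rel_zero_of_two {x y : Ω} (h0 : D3 o x y) (hx : g x = 0) (hy : g y = 0) (i : Ω) : g i = 0 := by
  by_cases e1 : i = o; · rwa [e1]
  by_cases e2 : i = x; · rwa [e2]
  by_cases e3 : i = y; · rwa [e3]
  have h4 : D3 i x y := ⟨e2, e3, h0.bc⟩
  refine h.FY_eq_zero (h1 i e1) (Ne.symm e1) h4 h0.ab.symm h0.ac.symm (sub_eq_zero.mp ?_)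
  have : ∑ j, (ρ (tau π i x y) (g j) - g j) = 0 := by rw [Finset.sum_sub_distrib, ← map_sum, h3]; simp
  rwa [Finset.sum_eq_single i (fun j _ hj => ?_) (by simp)] at this
  by_cases e4 : j = o; · simp [e4, h2]
  by_cases e5 : j = x; · simp [e5, hx]
  by_cases e6 : j = y; · simp [e6, hy]
  exact sub_eq_zero.mpr ((h1 j e4).1 _ _ _ h4 (by simp [e1, hj.symm]) (by simp [h0.ab.symm, Ne.symm e5])
    (by simp [h0.ac.symm, Ne.symm e6]))

theorem rel_perm {i j l : Ω} (h0 : D3 i j l) (hi : i ≠ o) (hj : j ≠ o) (hl : l ≠ o) : ρ (tau π i j l) (g i) = g j := by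
  have hc := h.card
  obtain ⟨x, hx⟩ := exists_notMem [o, i, j, l] (by simp; omega)
  obtain ⟨y, hy⟩ := exists_notMem [x, o, i, j, l] (by simp; omega)
  simp only [List.mem_cons, not_or] at hx hy
  have h4 : c3 i j l o = o := c3_of_ne hi.symm hj.symm hl.symm
  have h5 : ∀ z, z ≠ o → z ≠ i → z ≠ j → z ≠ l → ρ (tau π i j l) (g ((c3 i j l)⁻¹ z)) - g z = 0 := fun z a1 a2 a3 a4 => by
    rw [Perm.inv_eq_iff_eq.mpr (c3_of_ne a2 a3 a4).symm, (h1 z a1).1 _ _ _ h0 (by simp [hi, a2.symm])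
      (by simp [hj, a3.symm]) (by simp [hl, a4.symm]), sub_self]
  have := h.rel_zero_of_two (o := o) (g := fun m => ρ (tau π i j l) (g ((c3 i j l)⁻¹ m)) - g m) (fun m hm => by
      refine sub_mem ?_ (h1 m hm)
      simpa [h.pi_tau h0, h4] using h.FY_map (tau π i j l) (h1 ((c3 i j l)⁻¹ m) fun e => hm (by
        rw [Perm.inv_eq_iff_eq.mp e, h4])))
    (by simp only [Perm.inv_eq_iff_eq.mpr h4.symm, h2, map_zero, sub_self])
    (by rw [Finset.sum_sub_distrib, ← map_sum, Equiv.sum_comp (c3 i j l)⁻¹ g, h3]; simp)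
    ⟨Ne.symm hx.1, Ne.symm hy.2.1, Ne.symm hy.1⟩ (h5 x hx.1 hx.2.1 hx.2.2.1 hx.2.2.2.1)
    (h5 y hy.2.1 hy.2.2.1 hy.2.2.2.1 hy.2.2.2.2.1) j
  rwa [Perm.inv_eq_iff_eq.mpr (c3_a h0).symm, sub_eq_zero] at this

theorem rel_zero_of_one {x : Ω} (hx : x ≠ o) (hx' : g x = 0) (i : Ω) : g i = 0 := by
  by_cases e1 : i = o; · rwa [e1]
  by_cases e2 : x = i; · rwa [← e2]
  obtain ⟨y, hy⟩ := exists_notMem [o, x, i] (by have := h.card; simp; omega)
  simp only [List.mem_cons, not_or] at hy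
  rw [← h.rel_perm h1 h2 h3 ⟨e2, Ne.symm hy.2.1, Ne.symm hy.2.2.1⟩ hx e1 hy.1, hx', map_zero]

theorem rel_zero (hB : CaseB π ρ) (hr : (Fintype.card Ω : k) ≠ 0) (i : Ω) : g i = 0 := by
  have hc := h.card
  have hD : ∀ i j, i ≠ o → j ≠ o → i ≠ j → g j - g i ∈ FX π ρ [i, j] := fun i j hi hj hij => by
    obtain ⟨x, hx⟩ := exists_notMem [o, i, j] (by simp; omega)
    obtain ⟨y, hy⟩ := exists_notMem [x, o, i, j] (by simp; omega)
    simp only [List.mem_cons, not_or] at hx hy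
    have a1 : D3 i j x := ⟨hij, Ne.symm hx.2.1, Ne.symm hx.2.2.1⟩
    have a2 : D3 i j y := ⟨hij, Ne.symm hy.2.2.1, Ne.symm hy.2.2.2.1⟩
    exact h.FX_inter (i := x) (j := y) (by simp; omega)
      (h.rel_perm h1 h2 h3 a1 hi hj hx.1 ▸ FX_mono (hB _ _ _ a1 _) (by simp))
      (h.rel_perm h1 h2 h3 a2 hi hj hy.2.1 ▸ FX_mono (hB _ _ _ a2 _) (by simp)) (Ne.symm hy.1) (by simp [hx])
  have hE : ∀ i j, D3 o i j → ρ (tau π o j i) (g i) = -g j := fun i j h0 => by
    obtain ⟨x, hx⟩ := exists_notMem [o, i, j] (by simp; omega)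
    obtain ⟨y, hy⟩ := exists_notMem [x, o, i, j] (by simp; omega)
    simp only [List.mem_cons, not_or] at hx hy
    have a1 : D3 o x y := ⟨Ne.symm hx.1, Ne.symm hy.2.1, Ne.symm hy.1⟩
    have a2 := h.FY_map (tau π o j i) (h1 i h0.ab.symm)
    have a3 := (h.FY_map (tau π o i j) (h1 i h0.ab.symm)).1
    rw [h.pi_tau h0.swap, c3_a h0.swap, c3_c h0.swap] at a2
    rw [h.pi_tau h0, c3_a h0, c3_b] at a3
    have a4 : ρ (tau π o j i) (g i) + g j = g j - g i - ρ (tau π o i j) (g i) := by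
      linear_combination (norm := module) (h1 i h0.ab.symm).2 j h0
    refine eq_neg_of_add_eq_zero_left (h.FY_eq_zero (add_mem a2 (FY_symm (h1 j h0.ac.symm))) h0.ac.symm a1
      hx.2.2.1 hy.2.2.2.1 ?_)
    rw [a4]
    exact sub_mem (hD i j h0.ab.symm h0.ac.symm h0.bc) a3 _ _ _ a1 (by simp [h0.ab, h0.ac]) (by simp [hx]) (by simp [hy])
  by_cases e1 : i = o; · rwa [e1]
  obtain ⟨j, hj⟩ := exists_notMem [o, i] (by simp; omega)
  simp only [List.mem_cons, not_or] at hj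
  have h0 : D3 o i j := ⟨Ne.symm e1, Ne.symm hj.1, Ne.symm hj.2.1⟩
  have a1 : ρ (tau π o i j) (g i) = g j - g i := by
    linear_combination (norm := module) (h1 i e1).2 j h0 - hE i j h0
  have a2 : ∀ m, m ≠ o → m ≠ i → m ≠ j → ρ (tau π o i j) (g m) - g m + g i ∈ FX π ρ [m] := fun m b1 b2 b3 => by
    refine h.FX_inter (i := i) (j := j) (by simp; omega) ?_ ?_ h0.bc (by simp [b2.symm])
    · rw [sub_add, ← neg_sub (g i), sub_neg_eq_add]
      exact add_mem (h.FX_map _ (h1 m b1).1 (by simp [h.pi_tau h0, c3_a h0, c3_of_ne b1 b2 b3]))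
        (FX_mono (hD m i b1 e1 b2) (by simp))
    · have : ρ (tau π o i j) (g m) - g m + g i = ρ (tau π o i j) (g m - g i) + (g j - g m) := by
        rw [map_sub, a1]; abel
      rw [this]
      exact add_mem (h.FX_map _ (hD i m e1 b1 b2.symm) (by simp [h.pi_tau h0, c3_b, c3_of_ne b1 b2 b3]))
        (FX_mono (hD m j b1 hj.1 b3) (by simp))
  have a3 : ∀ m, m ≠ o → m ≠ i → m ≠ j → ρ (tau π o i j) (g m) - g m + g i = 0 := fun m b1 b2 b3 => by
    obtain ⟨x, hx⟩ := exists_notMem [o, i, j, m] (by simp; omega)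
    simp only [List.mem_cons, not_or] at hx
    refine h.FX_nil (h.FX_inter (i := m) (j := x) (by simp; omega) (a2 m b1 b2 b3) ?_ (Ne.symm hx.2.2.2.1) (by simp))
    have a4 := hD m x b1 hx.1 (Ne.symm hx.2.2.2.1) _ _ _ h0 (by simp [b1.symm, Ne.symm hx.1])
      (by simp [b2.symm, Ne.symm hx.2.1]) (by simp [b3.symm, Ne.symm hx.2.2.1])
    rw [map_sub] at a4
    convert a2 x hx.1 hx.2.1 hx.2.2.1 using 2
    linear_combination (norm := module) -a4
  have a4 : ∑ m, (ρ (tau π o i j) (g m) - g m + g i) = (Fintype.card Ω : k) • g i := by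
    rw [Finset.sum_add_distrib, Finset.sum_sub_distrib, ← map_sum, h3]; simp [Nat.cast_smul_eq_nsmul]
  rw [← Finset.sum_subset (Finset.subset_univ {o, i, j}) (fun m _ hm => by
      simp only [Finset.mem_insert, Finset.mem_singleton, not_or] at hm
      exact a3 m hm.1 hm.2.1 hm.2.2), Finset.sum_insert (by simp [h0.ab, h0.ac]), Finset.sum_pair h0.bc, a1,
    hE j i h0.swap, h2, map_zero] at a4
  refine (smul_eq_zero.mp (a4.symm.trans ?_)).resolve_left hr
  abel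

end Rel

theorem bound_of_caseB [FiniteDimensional k V] (hB : CaseB π ρ) :
    Fintype.card Ω - 2 ≤ finrank k V ∧ ((Fintype.card Ω : k) ≠ 0 → Fintype.card Ω - 1 ≤ finrank k V) := by
  obtain ⟨o, -⟩ := exists_notMem (Ω := Ω) [] (by have := h.card; simp; omega)
  obtain ⟨x, hx⟩ := exists_notMem [o] (by have := h.card; simp; omega)
  have hx' : x ≠ o := by simpa using hx
  choose! f hf hf' using fun i (hi : o ≠ i) => h.exists_FY hB hi
  have key : ∀ s : Finset Ω, o ∉ s → (∀ g : Ω → V, (∀ i, i ≠ o → g i ∈ FY π ρ o i) → (∀ i ∉ s, g i = 0) →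
      ∑ i, g i = 0 → ∀ i, g i = 0) → s.card ≤ finrank k V := fun s hs h1 => by
    have : LinearIndepOn k f s := linearIndepOn_finset_iff.mpr fun c hc i hi => by
      have := h1 (fun i => if i ∈ s then c i • f i else 0) (fun i hi => by
        split_ifs
        exacts [Submodule.smul_mem _ _ (hf i hi.symm), zero_mem _]) (fun i hi => if_neg hi)
        (by rw [Finset.sum_ite_mem, Finset.univ_inter, hc]) i
      rw [if_pos hi] at this
      exact (smul_eq_zero.mp this).resolve_right (hf' i (ne_of_mem_of_not_mem hi hs).symm)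
    simpa using this.fintype_card_le_finrank
  constructor
  · have := key ((Finset.univ.erase o).erase x) (by simp) fun g h1 h2 h3 =>
      h.rel_zero_of_one h1 (h2 o (by simp)) h3 hx' (h2 x (by simp))
    rw [Finset.card_erase_of_mem (by simpa), Finset.card_erase_of_mem (by simp), Finset.card_univ] at this
    omega
  · intro hr
    have := key (Finset.univ.erase o) (by simp) fun g h1 h2 h3 => h.rel_zero h1 (h2 o (by simp)) h3 hB hr
    rwa [Finset.card_erase_of_mem (by simp), Finset.card_univ] at this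

end ARep

end Cfsg.Agent.Lib.Forms
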