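import Cfsg.Agent.Lib.GL.SemiSimple

/-! Joint eigenspaces of families of endomorphisms. -/

set_option autoImplicit false

namespace Cfsg.Agent.Lib.Forms

open Module

variable {k V ι : Type*} [Field k] [AddCommGroup V] [Module k V]

/-- The joint eigenspace. -/
def JE (f : ι → End k V) (χ : ι → k) : Submodule k V := ⨅ i, (f i).eigenspace (χ i)

theorem mem_JE {f : ι → End k V} {χ : ι → k} {v : V} : v ∈ JE f χ ↔ ∀ i, f i v = χ i • v := by
  simp [JE]

theorem iSupIndep_JE (f : ι → End k V) : iSupIndep (JE f) := by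
  classical
  rw [iSupIndep_iff_finsetSum_eq_zero_imp_eq_zero]
  intro s
  induction s using Finset.induction_on with
  | empty => simp
  | insert a s ha ih =>
    intro v hv h
    rw [Finset.sum_insert ha] at h
    have h1 : ∀ b ∈ s, v b = 0 := fun b hb => by
      obtain ⟨i, hi⟩ := Function.ne_iff.mp (ne_of_mem_of_not_mem hb ha)
      refine (smul_eq_zero.mp (ih (fun c => (c i - a i) • v c)
        (fun c hc => Submodule.smul_mem _ _ (hv c (Finset.mem_insert_of_mem hc))) ?_ b hb)).resolve_left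
        (sub_ne_zero.mpr hi)
      have h2 := congrArg (f i) h
      rw [map_add, map_sum, map_zero, mem_JE.mp (hv a (Finset.mem_insert_self _ _)),
        Finset.sum_congr rfl fun c hc => mem_JE.mp (hv c (Finset.mem_insert_of_mem hc)) i] at h2
      simp only [sub_smul, Finset.sum_sub_distrib, ← Finset.smul_sum]
      rw [eq_neg_of_add_eq_zero_right h, eq_neg_of_add_eq_zero_right h2, smul_neg, sub_self]
    intro b hb
    rcases Finset.mem_insert.mp hb with rfl | hb
    · rwa [Finset.sum_eq_zero h1, add_zero] at h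
    · exact h1 b hb

variable [FiniteDimensional k V]

theorem sum_finrank_le_of_iSupIndep {Λ : Type*} [Fintype Λ] {p : Λ → Submodule k V} (h : iSupIndep p) :
    ∑ a, finrank k (p a) ≤ finrank k V := by
  classical
  rw [← finrank_directSum]
  exact LinearMap.finrank_le_finrank_of_injective (f := DirectSum.coeLinearMap p) h.dfinsupp_lsum_injective

theorem mul_card_le_of_JE (f : ι → End k V) {Λ : Type*} [Fintype Λ] {χ : Λ → ι → k} (hχ : Function.Injective χ)
    {m : ℕ} (h : ∀ a, m ≤ finrank k (JE f (χ a))) : m * Fintype.card Λ ≤ finrank k V := by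
  refine le_trans ?_ (sum_finrank_le_of_iSupIndep ((iSupIndep_JE f).comp hχ))
  rw [mul_comm, ← smul_eq_mul, ← Finset.card_univ]
  exact Finset.card_nsmul_le_sum _ _ _ fun a _ => h a

variable [IsAlgClosed k]

theorem eq_zero_of_JE {f : ι → End k V} (hf : ∀ i j, Commute (f i) (f j)) {l : ℕ} (hl : (l : k) ≠ 0)
    (h1 : ∀ i, f i ^ l = 1) {T : End k V} (h : ∀ χ, ∀ v ∈ JE f χ, T v = 0) : T = 0 := by
  have := End.iSup_iInf_maxGenEigenspace_eq_top_of_iSup_maxGenEigenspace_eq_top_of_commute f (fun i j _ => hf i j)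
    fun i => End.iSup_maxGenEigenspace_eq_top _
  simp only [fun i => (GL.SemiSimple.isSemisimple_of_pow_eq_one hl
    (h1 i)).isFinitelySemisimple.maxGenEigenspace_eq_eigenspace] at this
  rw [← LinearMap.ker_eq_top, eq_top_iff, ← this]
  exact iSup_le h

theorem exists_JE_ne_bot [Nontrivial V] {f : ι → End k V} (hf : ∀ i j, Commute (f i) (f j)) : ∃ χ, JE f χ ≠ ⊥ := by
  obtain ⟨U, ⟨h1, h2⟩, h3⟩ := (wellFounded_lt (α := Submodule k V)).has_min
    {U | U ≠ ⊥ ∧ ∀ i, ∀ v ∈ U, f i v ∈ U} ⟨⊤, top_ne_bot, fun _ _ _ => trivial⟩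
  haveI := Submodule.nontrivial_iff_ne_bot.mpr h1
  have h4 : ∀ i, ∃ c, U ≤ (f i).eigenspace c := fun i => by
    obtain ⟨c, hc⟩ := End.exists_eigenvalue ((f i).restrict (h2 i))
    obtain ⟨v, hv, hv'⟩ := hc.exists_hasEigenvector
    refine ⟨c, inf_eq_left.mp (eq_of_le_of_not_lt inf_le_left (h3 _ ⟨?_, fun j w hw => ⟨h2 j w hw.1, ?_⟩⟩))⟩
    · exact (Submodule.ne_bot_iff _).mpr ⟨v, ⟨v.2, End.mem_eigenspace_iff.mpr
        (congrArg Subtype.val (End.mem_eigenspace_iff.mp hv))⟩, by simpa using hv'⟩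
    · refine End.mem_eigenspace_iff.mpr ?_
      rw [← End.mul_apply, hf, End.mul_apply, End.mem_eigenspace_iff.mp hw.2, map_smul]
  choose χ hχ using h4
  exact ⟨χ, ne_bot_of_le_ne_bot h1 (le_iInf hχ)⟩

end Cfsg.Agent.Lib.Forms
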