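import Cfsg.Agent.Lib.Forms.AltRepB
import Cfsg.Agent.Lib.Forms.JointEig

/-! Small modules for covers of alternating groups: disjoint 3-cycles annihilate each other. -/

set_option autoImplicit false

namespace Cfsg.Agent.Lib.Forms

open Equiv Module

variable {Ω : Type} [Fintype Ω] [DecidableEq Ω] {H : Type*} [Group H] {k V : Type*} [Field k] [AddCommGroup V]
  [Module k V] {π : H →* Perm Ω} {ρ : H →* End k V}

/-- `(x - 1)(y - 1) = 0`. -/
def Ann (ρ : H →* End k V) (x y : H) : Prop := ∀ v, ρ x (ρ y v - v) = ρ y v - v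

theorem Ann.mul {x x' y : H} (h : Ann ρ x y) (h' : Ann ρ x' y) : Ann ρ (x * x') y := fun v => by
  rw [rho_mul, h', h]

theorem Ann.inv {x y : H} (h : Ann ρ x y) : Ann ρ x⁻¹ y := fun v => rho_inv_fix (h v)

theorem Ann.conj {x y g : H} (h : Ann ρ x y) (hg : Commute g y) : Ann ρ (g * x * g⁻¹) y := fun v => by
  rw [rho_mul, rho_mul, map_sub, ← rho_mul ρ g⁻¹, hg.inv_left.eq, rho_mul, h, map_sub, ← rho_mul, ← rho_mul, ← rho_mul,
    hg.eq]
  simp

theorem Ann.symm {x y : H} (h : Ann ρ x y) (hc : Commute x y) : Ann ρ y x := fun v => by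
  have := h v
  rw [map_sub, ← rho_mul, hc.eq, rho_mul] at this
  rw [map_sub]
  linear_combination (norm := module) this

theorem caseB_of_ann {m : ℕ} (h6 : 6 ≤ m) (hm : m ≤ Fintype.card Ω)
    (h : ∀ e : Fin m ↪ Ω, Ann ρ (tau π (e (Fin.castLE h6 3)) (e (Fin.castLE h6 4)) (e (Fin.castLE h6 5)))
      (tau π (e (Fin.castLE h6 0)) (e (Fin.castLE h6 1)) (e (Fin.castLE h6 2)))) : CaseB π ρ := by
  intro a b c h0 v d e f h1 hd he hf
  have := h0.1; have := h0.2; have := h0.3; have := h1.1; have := h1.2; have := h1.3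
  obtain ⟨y, hy⟩ := Fin.Embedding.restrictSurjective_of_le_natCard h6 (Nat.card_eq_fintype_card (α := Ω) ▸ hm)
    ⟨![a, b, c, d, e, f], List.nodup_ofFn.mp (by simp at hd he hf ⊢; grind)⟩
  have h2 : ∀ i, y (Fin.castLE h6 i) = ![a, b, c, d, e, f] i := fun i => DFunLike.congr_fun hy i
  simpa [h2] using h y v

theorem ACov.ann_tau (h : ACov π) {m : ℕ} (e : Fin m ↪ Ω) {d u : H} {c υ γ : Perm (Fin m)} (hd : π d = Jp e c)
    (hu : π u = Jp e υ) (l : List (Fin m)) (hl : l.length + 5 ≤ Fintype.card Ω) {i j s a b t : Fin m}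
    (H : D3 i j s ∧ D3 a b t ∧ (∀ x, x ∉ l → υ x = x) ∧ (∀ x ∈ l, c3 i j s x = x) ∧ (∀ x ∈ l, γ x = x) ∧
      c3 i j s * c * (c3 i j s)⁻¹ * c⁻¹ = c3 a b t ∧ Perm.sign γ = 1 ∧ γ a = a ∧ γ b = t ∧ γ t = b)
    (hA : Ann ρ d u) : Ann ρ (tau π (e a) (e b) (e t)) u := by
  obtain ⟨h1, h2, h3, h4, h5, h6, h7, h8, h9, h10⟩ := H
  obtain ⟨x, hx⟩ := h.exists_Jp e _ (sign_c3 h1)
  obtain ⟨g, hg⟩ := h.exists_Jp e γ h7
  have h11 := (hA.conj (h.commute_Jp e hu hx l hl h3 h4).symm).mul hA.inv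
  rw [← h.comm_eq_tau (h2.map e.injective) (y := x * d * x⁻¹ * d⁻¹) (g := g)
    (by rw [← Jp_c3 e h2, ← h6]; simp [hx, hd]) (by rw [hg, Jp_apply, h8]) (by rw [hg, Jp_apply, h9])
    (by rw [hg, Jp_apply, h10])]
  exact (h11.conj (h.commute_Jp e hu hg l hl h3 h5).symm).mul h11.inv

section EJ

variable {ι : Type*} {l : ℕ}

/-- Joint eigenspace with eigenvalues `ζ ^ a i`. -/
def EJ (ρ : H →* End k V) (d : ι → H) (ζ : k) (a : ι → ZMod l) : Submodule k V :=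
  JE (fun i => ρ (d i)) fun i => ζ ^ (a i).val

theorem rho_pow_of_eigen {x : H} {v : V} {c : k} (h : ρ x v = c • v) (n : ℕ) : ρ (x ^ n) v = c ^ n • v := by
  induction n with
  | zero => simp
  | succ n ih => rw [pow_succ, rho_mul, h, map_smul, ih, smul_smul, pow_succ']

variable [FiniteDimensional k V] [NeZero l] {ζ : k} (hζ : IsPrimitiveRoot ζ l) {d : ι → H}
include hζ

theorem EJ_conj {g : H} (σ : ι → ι) (s : ι → ZMod l) (h : ∀ i, g * d i * g⁻¹ = d (σ i) ^ (s i).val) (a : ι → ZMod l) :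
    finrank k (EJ ρ d ζ a) ≤ finrank k (EJ ρ d ζ fun i => s i * a (σ i)) := by
  refine LinearMap.finrank_le_finrank_of_injective (f := (ρ g⁻¹).restrict fun v hv => mem_JE.mpr fun i => ?_)
    fun v w e => Subtype.ext ?_
  · rw [← rho_mul, show d i * g⁻¹ = g⁻¹ * (g * d i * g⁻¹) by group, h, rho_mul,
      rho_pow_of_eigen (mem_JE.mp hv (σ i)), map_smul, ← pow_mul, ZMod.val_mul, ← pow_eq_pow_mod _ hζ.pow_eq_one,
      mul_comm]
  · have : ρ g (ρ g⁻¹ v) = ρ g (ρ g⁻¹ w) := congrArg (fun x => ρ g x.1) e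
    simpa only [← rho_mul, mul_inv_cancel, map_one, End.one_apply] using this

theorem EJ_card {Λ : Type*} [Fintype Λ] {a : Λ → ι → ZMod l} (ha : Function.Injective a) {m : ℕ}
    (h : ∀ x, m ≤ finrank k (EJ ρ d ζ (a x))) : m * Fintype.card Λ ≤ finrank k V :=
  mul_card_le_of_JE _ (fun _ _ e => ha (funext fun i => ZMod.val_injective l
    (hζ.pow_inj (ZMod.val_lt _) (ZMod.val_lt _) (congrFun e i)))) h

theorem EJ_zero [IsAlgClosed k] (hc : ∀ i j, Commute (d i) (d j)) (h1 : ∀ i, d i ^ l = 1) {T : End k V}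
    (h : ∀ a : ι → ZMod l, ∀ v ∈ EJ ρ d ζ a, T v = 0) : T = 0 := by
  refine eq_zero_of_JE (f := fun i => ρ (d i)) (fun i j => (hc i j).map ρ) hζ.neZero'.out
    (fun i => by rw [← map_pow, h1, map_one]) fun χ v hv => ?_
  by_cases hv0 : v = 0
  · simp [hv0]
  have h2 : ∀ i, ∃ a : ZMod l, ζ ^ a.val = χ i := fun i => by
    have := rho_pow_of_eigen (mem_JE.mp hv i) l
    rw [h1, map_one] at this
    obtain ⟨n, hn, e⟩ := hζ.eq_pow_of_pow_eq_one (ξ := χ i) (smul_left_injective k hv0 (this.symm.trans (one_smul k v).symm))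
    exact ⟨n, by rw [ZMod.val_cast_of_lt hn, e]⟩
  choose a ha using h2
  exact h a v (by rwa [EJ, funext ha])

theorem exists_EJ [IsAlgClosed k] (hc : ∀ i j, Commute (d i) (d j)) (h1 : ∀ i, d i ^ l = 1) {i j : ι}
    (h : ¬ Ann ρ (d i) (d j)) : ∃ a : ι → ZMod l, a i ≠ 0 ∧ a j ≠ 0 ∧ 1 ≤ finrank k (EJ ρ d ζ a) := by
  by_contra! h2
  have := EJ_zero hζ hc h1 (T := (ρ (d i) - 1) * (ρ (d j) - 1)) (ρ := ρ) fun a v hv => by
    have h3 := mem_JE.mp hv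
    by_cases hi : a i = 0
    · simp [h3, hi]
    by_cases hj : a j = 0
    · simp [h3, hj]
    have := h2 a hi hj
    rw [Nat.lt_one_iff, Submodule.finrank_eq_zero] at this
    rw [this] at hv
    simp [(Submodule.mem_bot k).mp hv]
  exact h fun v => sub_eq_zero.mp (LinearMap.congr_fun this v)

end EJ

theorem iterate_of {α : Type*} {P : α → Prop} {G : α → α} (h : ∀ a, P a → P (G a)) (n : ℕ) {a : α} (ha : P a) :
    P (G^[n] a) := Function.Iterate.rec P ha h n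

theorem comm_of_finrank_le_one [FiniteDimensional k V] {E : Submodule k V} (h : finrank k E ≤ 1) {f g : End k V}
    (hf : ∀ v ∈ E, f v ∈ E) (hg : ∀ v ∈ E, g v ∈ E) {v : V} (hv : v ∈ E) : f (g v) = g (f v) := by
  obtain ⟨w, hw⟩ := finrank_le_one_iff.mp h
  obtain ⟨a, ha⟩ := hw ⟨_, hf w w.2⟩
  obtain ⟨b, hb⟩ := hw ⟨_, hg w w.2⟩
  obtain ⟨c, hc⟩ := hw ⟨v, hv⟩
  simp only [Subtype.ext_iff, Submodule.coe_smul] at ha hb hc
  simp only [← hc, map_smul, ← ha, ← hb, smul_smul]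
  congr 1; ring

variable [FiniteDimensional k V] [IsAlgClosed k]

theorem exists_prim (l : ℕ) (hl : (l : k) ≠ 0) : ∃ ζ : k, IsPrimitiveRoot ζ l :=
  haveI : NeZero (l : k) := ⟨hl⟩
  HasEnoughRootsOfUnity.exists_primitiveRoot k l

theorem ann_of_cyc {l : ℕ} [NeZero l] (hl : (l : k) ≠ 0) (s : ZMod l) (hn : finrank k V < 2 * (l - 1))
    (hs : ∀ a b : ZMod l, a ≠ 0 → b ≠ 0 → ∃ i < l, (s * ·)^[i] a = b) {d g x y : H} (h1 : d ^ l = 1)
    (h2 : g * d * g⁻¹ = d ^ s.val) (hx : Commute x d) (hy : Commute y d) : Ann ρ (x * y * x⁻¹ * y⁻¹) d := by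
  obtain ⟨ζ, hζ⟩ := exists_prim l hl
  have := EJ_zero hζ (d := fun _ : Unit => d) (fun _ _ => Commute.refl _) (fun _ => h1)
    (T := (ρ (x * y * x⁻¹ * y⁻¹) - 1) * (ρ d - 1)) (ρ := ρ) fun a v hv => by
      have h3 := mem_JE.mp hv ()
      by_cases ha : a () = 0
      · simp [h3, ha]
      have h4 : finrank k (EJ ρ (fun _ : Unit => d) ζ a) ≤ 1 := by
        by_contra! h4
        have := EJ_card hζ (Λ := {b : ZMod l // b ≠ 0}) (a := fun b _ => b.1) (d := fun _ : Unit => d) (ρ := ρ) (m := 2)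
          (fun _ _ e => Subtype.ext (congrFun e ())) fun b => by
            obtain ⟨i, -, hi⟩ := hs _ _ ha b.2
            rw [← hi]
            exact iterate_of (P := fun b => 2 ≤ finrank k (EJ ρ (fun _ : Unit => d) ζ fun _ => b))
              (fun b hb => hb.trans (EJ_conj hζ id (fun _ => s) (fun _ => h2) _)) i h4
        rw [Fintype.card_subtype_compl, ZMod.card, Fintype.card_subtype_eq] at this
        omega
      have h5 : ∀ z, Commute z d → ∀ w ∈ EJ ρ (fun _ : Unit => d) ζ a, ρ z w ∈ EJ ρ (fun _ : Unit => d) ζ a :=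
        fun z hz w hw => mem_JE.mpr fun i => by rw [← rho_mul, ← hz.eq, rho_mul, mem_JE.mp hw i, map_smul]
      have h6 : ρ (x * y * x⁻¹ * y⁻¹) v = v := by
        rw [rho_mul, rho_mul, rho_mul, comm_of_finrank_le_one h4 (h5 x hx) (h5 y hy)
          (h5 _ hx.inv_left _ (h5 _ hy.inv_left _ hv))]
        rw [← rho_mul ρ x, mul_inv_cancel, map_one, End.one_apply, ← rho_mul, mul_inv_cancel, map_one, End.one_apply]
      generalize x * y * x⁻¹ * y⁻¹ = u at h6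
      simp [h3, h6]
  exact fun v => sub_eq_zero.mp (LinearMap.congr_fun this v)

theorem ACov.ann_of_cyc (h : ACov π) {l j : ℕ} [NeZero l] (hl : (l : k) ≠ 0) (s : ZMod l) (hj : s.val = j + 1)
    (hn : finrank k V < 2 * (l - 1)) (hs : ∀ a b : ZMod l, a ≠ 0 → b ≠ 0 → ∃ i < l, (s * ·)^[i] a = b)
    {m : ℕ} (e : Fin m ↪ Ω) {c γ υ γ' : Perm (Fin m)} {i0 i1 i2 i3 i4 i5 i7 i8 a b t : Fin m}
    (H : (Perm.sign c = 1 ∧ Perm.sign γ = 1 ∧ γ * c * γ⁻¹ = c ^ (j + 1) ∧ c ^ l = 1) ∧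
      (D3 i4 i5 i7 ∧ D3 i4 i5 i8 ∧ D3 i3 i4 i5 ∧ (∀ x ∈ [i4, i5, i7, i8], (c ^ j) x = x) ∧
      c3 i4 i5 i7 * c3 i4 i5 i8 * (c3 i4 i5 i7)⁻¹ * (c3 i4 i5 i8)⁻¹ = υ) ∧
      (υ i3 = i3 ∧ υ i4 = i5 ∧ υ i5 = i4 ∧ ∀ x ∈ [i0, i1, i2], υ x = x ∧ c3 i3 i4 i5 x = x) ∧
      D3 a b t ∧ D3 i0 i1 i2 ∧ (∀ x, x ∉ [i4, i5, i7, i8] → υ x = x) ∧ (∀ x ∈ [i4, i5, i7, i8], c3 a b t x = x) ∧
      (∀ x ∈ [i4, i5, i7, i8], γ' x = x) ∧ c3 a b t * c ^ j * (c3 a b t)⁻¹ * (c ^ j)⁻¹ = c3 i0 i1 i2 ∧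
      Perm.sign γ' = 1 ∧ γ' i0 = i0 ∧ γ' i1 = i2 ∧ γ' i2 = i1) :
    Ann ρ (tau π (e i3) (e i4) (e i5)) (tau π (e i0) (e i1) (e i2)) := by
  obtain ⟨⟨h1, h2, h3, h4⟩, ⟨h5, h6, h7, h8, h9⟩, ⟨h10, h11, h12, h13⟩, H⟩ := H
  have hc := h.card
  obtain ⟨x, hx⟩ := h.exists_Jp e c h1
  obtain ⟨g, hg⟩ := h.exists_Jp e γ h2
  obtain ⟨d, hd, a1, a2⟩ := exists_lift_pow h.cent (x := x) (g := g) (j := j) (l := l)
    (by rw [hx, hg, ← map_inv, ← map_mul, ← map_mul, h3, map_pow]) (by rw [hx, ← map_pow, h4, map_one])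
  rw [hx, ← map_pow] at hd
  have a3 : ∀ x ∈ [i4, i5, i7, i8], π d (e x) = e x := fun x hx => by rw [hd, Jp_apply, h8 x hx]
  have a4 := Lib.Forms.ann_of_cyc (ρ := ρ) hl s hn hs a1 (hj ▸ a2)
    (h.commute_tau (h5.map e.injective) (a3 _ (by simp)) (a3 _ (by simp)) (a3 _ (by simp))).symm
    (h.commute_tau (h6.map e.injective) (a3 _ (by simp)) (a3 _ (by simp)) (a3 _ (by simp))).symm
  have a5 : π (tau π (e i4) (e i5) (e i7) * tau π (e i4) (e i5) (e i8) * (tau π (e i4) (e i5) (e i7))⁻¹ *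
      (tau π (e i4) (e i5) (e i8))⁻¹) = Jp e υ := by
    simp [← h9, h.pi_tau (h5.map e.injective), h.pi_tau (h6.map e.injective), Jp_c3 e h5, Jp_c3 e h6]
  generalize tau π (e i4) (e i5) (e i7) * _ * _ * _ = u at a4 a5
  have d0 := H.2.1.map e.injective
  have d3 := h7.map e.injective
  have a6 := (h.ann_tau e hd a5 _ (by simp; omega) H
    (a4.symm (h.commute_Jp e a5 hd _ (by simp; omega) H.2.2.1 h8))).symm (h.commute_tau d0
      (by rw [a5, Jp_apply, (h13 _ (by simp)).1]) (by rw [a5, Jp_apply, (h13 _ (by simp)).1])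
      (by rw [a5, Jp_apply, (h13 _ (by simp)).1])).symm
  have a7 : ∀ x ∈ [i0, i1, i2], π (tau π (e i3) (e i4) (e i5)) (e x) = e x := fun x hx => by
    rw [h.pi_tau d3, ← Jp_c3 e h7, Jp_apply, (h13 x hx).2]
  rw [← h.comm_eq_tau d3 (h.pi_tau d3) (g := u) (by rw [a5, Jp_apply, h10]) (by rw [a5, Jp_apply, h11])
    (by rw [a5, Jp_apply, h12]), mul_assoc, mul_assoc, ← mul_assoc (tau ..)]
  exact a6.mul (a6.inv.conj (h.commute_tau d0 (a7 _ (by simp)) (a7 _ (by simp)) (a7 _ (by simp))))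

set_option synthInstance.maxSize 4000 in
theorem ACov.caseB_five (h : ACov π) (hl : ((5 : ℕ) : k) ≠ 0) (hn : finrank k V < 8) : CaseB π ρ :=
  caseB_of_ann (m := 9) (by norm_num) h.card fun e => h.ann_of_cyc (j := 1) hl 2 rfl hn (by decide) e
    (c := ⟨![1, 3, 6, 2, 4, 5, 0, 7, 8], ![6, 0, 3, 1, 4, 5, 2, 7, 8], by decide, by decide⟩)
    (γ := ⟨![0, 3, 1, 6, 5, 4, 2, 7, 8], ![0, 2, 6, 1, 5, 4, 3, 7, 8], by decide, by decide⟩)
    (υ := swap 4 5 * swap 7 8) (γ' := swap 1 2 * swap 3 6) (i7 := 7) (i8 := 8) (a := 0) (b := 1) (t := 3)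
    (by decide +kernel)

set_option synthInstance.maxSize 4000 in
theorem ACov.caseB_seven (h : ACov π) (hΩ : 11 ≤ Fintype.card Ω) (hl : ((7 : ℕ) : k) ≠ 0) (hn : finrank k V < 12) :
    CaseB π ρ :=
  caseB_of_ann (m := 11) (by norm_num) hΩ fun e => h.ann_of_cyc (j := 2) hl 3 rfl hn (by decide) e
    (c := ⟨![1, 3, 6, 2, 4, 5, 9, 7, 8, 10, 0], ![10, 0, 3, 1, 4, 5, 2, 7, 8, 6, 9], by decide, by decide⟩)
    (γ := ⟨![0, 2, 3, 10, 5, 4, 9, 7, 8, 1, 6], ![0, 9, 1, 2, 5, 4, 10, 7, 8, 6, 3], by decide, by decide⟩)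
    (υ := swap 4 5 * swap 7 8) (γ' := swap 1 2 * swap 3 6) (i7 := 7) (i8 := 8) (a := 1) (b := 2) (t := 9)
    (by decide +kernel)

theorem ACov.caseB_three (h : ACov π) (hl : ((3 : ℕ) : k) ≠ 0) (hn : finrank k V < 8) : CaseB π ρ := by
  refine caseB_of_ann (m := 9) (by norm_num) h.card fun e => by_contra fun hA => ?_
  obtain ⟨ζ, hζ⟩ := exists_prim 3 hl
  let p : Fin 3 → Fin 3 → Fin 9 := ![![0, 1, 2], ![3, 4, 5], ![6, 7, 8]]
  have h0 : ∀ i, D3 (p i 0) (p i 1) (p i 2) := by decide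
  have h1 := fun i => (h0 i).map e.injective
  let d : Fin 3 → H := fun i => tau π (e (p i 0)) (e (p i 1)) (e (p i 2))
  obtain ⟨a, a1, a0, ha⟩ := exists_EJ hζ (d := d) (i := 1) (j := 0) (fun i j => by
    by_cases hij : i = j
    · rw [hij]
    · have : ∀ x, π (d i) (e (p j x)) = e (p j x) := fun x => by
        rw [h.pi_tau (h1 i), ← Jp_c3 e (h0 i), Jp_apply]; congr 1; revert i j x; decide
      exact h.commute_tau (h1 j) (this _) (this _) (this _)) (fun i => h.tau_pow (h1 i)) hA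
  have key : ∀ (γ : Perm (Fin 9)) (σ : Fin 3 → Fin 3) (s : Fin 3 → ZMod 3), Perm.sign γ = 1 →
      (∀ i, γ (p i 0) = p (σ i) 0 ∧ ((s i = 1 ∧ γ (p i 1) = p (σ i) 1 ∧ γ (p i 2) = p (σ i) 2) ∨
        (s i = 2 ∧ γ (p i 1) = p (σ i) 2 ∧ γ (p i 2) = p (σ i) 1))) →
      ∀ a, 1 ≤ finrank k (EJ ρ d ζ a) → 1 ≤ finrank k (EJ ρ d ζ fun i => s i * a (σ i)) := fun γ σ s h2 h3 a ha => by
    obtain ⟨g, hg⟩ := h.exists_Jp e γ h2
    refine ha.trans (EJ_conj hζ (g := g) σ s (fun i => ?_) a)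
    rw [h.conj_tau (h1 i), hg, Jp_apply, Jp_apply, Jp_apply, (h3 i).1]
    rcases (h3 i).2 with ⟨h4, h5, h6⟩ | ⟨h4, h5, h6⟩ <;> rw [h4, h5, h6]
    · exact (pow_one _).symm
    · exact (h.tau_sq (h1 _)).symm
  have k1 := key (swap 3 6 * (swap 4 8 * swap 4 5 * swap 4 7)) ![0, 2, 1] ![1, 1, 2] (by decide +kernel) (by decide +kernel)
  have k2 := key (swap 1 2 * swap 4 5) id ![2, 2, 1] (by decide +kernel) (by decide +kernel)
  have := EJ_card hζ (Λ := Fin 4 × Bool) (d := d) (ρ := ρ) (m := 1)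
    (a := fun x => (fun a i => ![1, 1, 2] i * a (![0, 2, 1] i))^[x.1] (if x.2 then (fun i => ![2, 2, 1] i * a (id i)) else a))
    (by clear ha; revert a; decide +kernel) fun ⟨_, b⟩ => iterate_of k1 _ (by cases b; exacts [ha, k2 a ha])
  simp at this; omega

set_option synthInstance.maxSize 4000 in
theorem ACov.caseB_ten (h : ACov π) (hΩ : 10 ≤ Fintype.card Ω) (hl : ((5 : ℕ) : k) ≠ 0) (hn : finrank k V < 16) :
    CaseB π ρ := by
  refine caseB_of_ann (m := 10) (by norm_num) hΩ fun e => ?_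
  obtain ⟨ζ, hζ⟩ := exists_prim 5 hl
  let c : Perm (Fin 10) := ⟨![1, 6, 7, 3, 4, 5, 2, 0, 8, 9], ![7, 0, 6, 3, 4, 5, 1, 2, 8, 9], by decide, by decide⟩
  let ω : Perm (Fin 10) := ⟨![3, 4, 5, 0, 6, 1, 8, 9, 7, 2], ![3, 5, 9, 0, 1, 2, 4, 8, 6, 7], by decide, by decide⟩
  obtain ⟨x, hx⟩ := h.exists_Jp e c (by decide +kernel)
  obtain ⟨w, hw⟩ := h.exists_Jp e ω (by decide +kernel)
  obtain ⟨g, hg⟩ := h.exists_Jp e (swap 1 7 * swap 2 6) (by decide +kernel)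
  obtain ⟨d, hd, a1, a2⟩ := exists_lift_pow h.cent (x := x) (g := w * w) (j := 1) (l := 5)
    (by rw [map_mul, hx, hw, ← map_mul, ← map_inv, ← map_mul, ← map_mul, ← map_pow]; congr 1; decide +kernel)
    (by rw [hx, ← map_pow, ← map_one (Jp e)]; congr 1; decide +kernel)
  rw [hx, pow_one] at hd
  have hd' : π (w * d * w⁻¹) = Jp e (ω * c * ω⁻¹) := by simp [hd, hw]
  have a3 : Commute d (w * d * w⁻¹) := h.commute_Jp e hd hd' [0, 1, 2, 6, 7] hΩ (by decide) (by decide +kernel)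
  have a4 : Ann ρ d (w * d * w⁻¹) := by
    by_contra hA
    obtain ⟨a, a0, a1, ha⟩ := exists_EJ hζ (d := ![d, w * d * w⁻¹]) (i := 0) (j := 1) (fun i j => by
      fin_cases i <;> fin_cases j
      exacts [Commute.refl _, a3, a3.symm, Commute.refl _]) (fun i => by fin_cases i <;> simp [a1]) hA
    have k1 := fun a => EJ_conj hζ (ρ := ρ) (d := ![d, w * d * w⁻¹]) (g := w) ![1, 0] ![1, 2] (fun i => by
      fin_cases i
      · exact (pow_one _).symm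
      · exact Eq.trans (by simp [mul_assoc]) a2) a
    have k2 := EJ_conj hζ (ρ := ρ) (d := ![d, w * d * w⁻¹]) (g := g) id ![4, 1] (fun i => by
      fin_cases i
      · have b1 : Commute d (g⁻¹ * (w * w * (w * w))) := h.commute_Jp e hd
          (σ' := (swap 1 7 * swap 2 6)⁻¹ * (ω * ω * (ω * ω))) (by simp only [map_mul, map_inv, hg, hw])
          [0, 1, 2, 6, 7] hΩ (by decide) (by decide +kernel)
        change g * d * g⁻¹ = d ^ 4
        calc g * d * g⁻¹ = g * (d * (g⁻¹ * (w * w * (w * w)))) * (w * w * (w * w))⁻¹ := by group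
          _ = w * w * (w * w * d * (w * w)⁻¹) * (w * w)⁻¹ := by rw [b1.eq]; group
          _ = _ := by rw [a2, ← conj_pow, a2, ← pow_mul]
      · exact (mul_inv_eq_iff_eq_mul.mpr (h.commute_Jp e hg hd' [0, 1, 2, 6, 7] hΩ (by decide)
          (by decide +kernel)).eq).trans (pow_one _).symm) a
    have := EJ_card hζ (Λ := Fin 8 × Bool) (d := ![d, w * d * w⁻¹]) (ρ := ρ) (m := 1)
      (a := fun x => (fun a i => ![1, 2] i * a (![1, 0] i))^[x.1] (if x.2 then (fun i => ![4, 1] i * a (id i)) else a))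
      (by clear k2 ha; revert a; decide +kernel) fun ⟨_, b⟩ => iterate_of (P := fun a => 1 ≤ finrank k (EJ ρ _ ζ a))
        (fun a ha => ha.trans (k1 a)) _ (by cases b; exacts [ha, ha.trans k2])
    simp at this; omega
  have d0 : D3 (0 : Fin 10) 1 2 := by decide
  have a5 := h.ann_tau e hd hd' [3, 4, 5, 8, 9] hΩ (γ := swap 1 2 * swap 6 7) (i := 0) (j := 1) (s := 6) (a := 0) (b := 1)
    (t := 2) (by decide +kernel) a4
  have a6 : π (tau π (e 0) (e 1) (e 2)) = Jp e (c3 0 1 2) := by rw [h.pi_tau (d0.map e.injective), Jp_c3 e d0]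
  exact h.ann_tau e hd' a6 [0, 1, 2] (by simp; omega) (γ := swap 4 5 * swap 8 9) (i := 3) (j := 4) (s := 8) (a := 3)
    (b := 4) (t := 5) (by decide +kernel)
    (a5.symm (h.commute_Jp e a6 hd' [0, 1, 2] (by simp; omega) (by decide) (by decide +kernel)))

end Cfsg.Agent.Lib.Forms
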