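import Cfsg.Agent.Lib.Forms.OrthBal
import Cfsg.Agent.Lib.GL.OrthConj
import Cfsg.Agent.Lib.GL.SemiSimple

/-!
# Classes of semisimple elements of odd prime order in orthogonal groups of even dimension
-/

set_option autoImplicit false
set_option linter.unusedSectionVars false
set_option maxHeartbeats 400000

namespace Cfsg.Agent.Lib.Forms

open Module QuadraticMap Polynomial Matrix

universe u v

section General

variable {F : Type u} {V : Type v} [Field F] [AddCommGroup V] [Module F V] [FiniteDimensional F V]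
  {Q : QuadraticForm F V}

theorem det_of_symp_simil {B : LinearMap.BilinForm F V} (hA : B.IsAlt) (hB : B.Nondegenerate) {k : ℕ}
    (hk : finrank F V = 2 * k) {c : V →ₗ[F] V} {μ : F} (hμ : μ ≠ 0) (h : ∀ u v, B (c u) (c v) = μ * B u v) :
    LinearMap.det c = μ ^ k := by
  obtain ⟨e, he⟩ := GL.Alt.exists_equiv_sympForm_of_finrank hA hB hk
  let M := LinearMap.toMatrix' (e.conj c)
  let D : Matrix (Fin k ⊕ Fin k) (Fin k ⊕ Fin k) F := Matrix.fromBlocks (μ⁻¹ • 1) 0 0 1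
  have h1 : ∀ u v, Cfsg.sympForm k F (M *ᵥ u) (M *ᵥ v) = μ * Cfsg.sympForm k F u v := fun u v => by
    obtain ⟨u, rfl⟩ := e.surjective u
    obtain ⟨v, rfl⟩ := e.surjective v
    simp [M, LinearMap.toMatrix'_mulVec, ← he, h]
  have h2 : ∀ u v, Cfsg.sympForm k F (D *ᵥ u) (D *ᵥ v) = μ⁻¹ * Cfsg.sympForm k F u v := fun u v => by
    simp only [sympForm_apply, D, Matrix.fromBlocks_mulVec, Finset.mul_sum]
    refine Finset.sum_congr rfl fun i _ => ?_
    simp [Matrix.smul_mulVec]; ring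
  have h3 : M * D ∈ Matrix.symplecticGroup (Fin k) F := by
    rw [SymplecticGroup.mem_iff']
    refine Matrix.toBilin'.injective (LinearMap.ext₂ fun u v => ?_)
    have := h1 (D *ᵥ u) (D *ᵥ v)
    rw [h2, mul_inv_cancel_left₀ hμ, mulVec_mulVec, mulVec_mulVec] at this
    rw [Matrix.toBilin'_apply', Matrix.toBilin'_apply', Matrix.mul_assoc, ← mulVec_mulVec, dotProduct_mulVec,
      vecMul_transpose, ← mulVec_mulVec v]
    exact this
  have h4 := SymplecticGroup.det_eq_one h3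
  rw [det_mul, det_fromBlocks_zero₂₁, LinearMap.det_toMatrix', LinearEquiv.conj_apply, LinearMap.comp_assoc,
    LinearMap.det_conj] at h4
  simp only [det_smul, Fintype.card_fin, det_one, mul_one, inv_pow] at h4
  exact (mul_inv_eq_one₀ (pow_ne_zero _ hμ)).mp h4

theorem end_pow_eq_one {g : OG Q} {r : ℕ} (hg : g ^ r = 1) : (g.1 : End F V) ^ r = 1 := by
  have : ∀ n : ℕ, (g.1 : End F V) ^ n = ((g ^ n).1 : End F V) := fun n => by
    induction n with
    | zero => rfl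
    | succ n ih => rw [pow_succ, pow_succ, ih]; rfl
  rw [this, hg]; rfl

theorem fpf_neg {g : OG Q} {r : ℕ} (hr : Odd r) (hg : g ^ r = 1) {v : V} (hv : g.1 v = -v) : g.1 v = v := by
  have h : ∀ k, (g ^ k).1 v = (-1 : F) ^ k • v := fun k => by
    induction k with
    | zero => simp
    | succ k ih => rw [pow_succ, OG.mul_apply, hv, map_neg, ih, pow_succ]; simp
  have := h r
  rw [hg, hr.neg_one_pow, neg_one_smul] at this
  exact hv.trans this.symm

theorem exists_alt_of_fpf (hQ : Nondeg Q) {g : OG Q} (h1 : ∀ v, g.1 v = v → v = 0) (h2 : ∀ v, g.1 v = -v → v = 0) :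
    ∃ B : LinearMap.BilinForm F V, B.IsAlt ∧ B.Nondegenerate ∧
      ∀ u v, B u v = polar Q (g.1 u) v - polar Q u (g.1 v) := by
  let B : LinearMap.BilinForm F V := (polarBilin Q).compl₁₂ g.1 LinearMap.id - (polarBilin Q).compl₁₂ LinearMap.id g.1
  have hB : ∀ u v, B u v = polar Q (g.1 u) v - polar Q u (g.1 v) := fun u v => rfl
  have hA : B.IsAlt := fun v => by rw [hB, polar_comm, sub_self]
  refine ⟨B, hA, GL.AltConj.nondegenerate_of_isAlt hA fun v hv => ?_, hB⟩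
  have h3 : g.1 (g.1 v) = v := hQ.eq_of_polar fun u => by
    obtain ⟨u, rfl⟩ := g.1.surjective u
    have := hv (g.1.symm u)
    obtain ⟨u, rfl⟩ := g.1.surjective u
    have := hv (g.1 u)
    rw [hB, sub_eq_zero] at this
    rw [OG.map_polar, polar_comm, ← this, polar_comm]
  exact h2 v (eq_neg_of_add_eq_zero_left (h1 _ (by rw [map_add, h3, add_comm])))

theorem det_of_comm_fpf (hQ : Nondeg Q) {g : OG Q} (h1 : ∀ v, g.1 v = v → v = 0) (h2 : ∀ v, g.1 v = -v → v = 0)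
    {k : ℕ} (hk : finrank F V = 2 * k) {c : Semi Q} (hc : c.σ = 1) (h : Semi.cj Q c g = g) :
    LinearMap.det (c.toLin hc : V →ₗ[F] V) = (c.c : F) ^ k := by
  obtain ⟨B, hA, hB, h3⟩ := exists_alt_of_fpf hQ h1 h2
  refine det_of_symp_simil hA hB hk c.c.ne_zero fun u v => ?_
  have h4 : ∀ v, g.1 (c.e v) = c.e (g.1 v) := fun v => by rw [← c.cj_apply_e, h]
  simp [h3, h4, c.map_polar, hc, mul_sub]

theorem polar_aeval (g : OG Q) (h : F[X]) (u w : V) :
    polar Q (aeval (g.1 : End F V) h u) w = polar Q u (aeval ((g⁻¹).1 : End F V) h w) := by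
  induction h using Polynomial.induction_on generalizing u w with
  | C a => simp
  | add p q hp hq => simp [hp, hq]
  | monomial n a ih =>
    rw [pow_succ, ← mul_assoc, map_mul, Module.End.mul_apply, ih, mul_assoc, ← pow_succ, pow_succ', ← mul_assoc,
      mul_comm (C a) X, mul_assoc, map_mul _ X, Module.End.mul_apply, aeval_X, aeval_X, LinearEquiv.coe_coe,
      LinearEquiv.coe_coe, polar_comm Q u, OG.polar_inv, polar_comm]

theorem aeval_mem {T : End F V} {U : Submodule F V} (hU : ∀ v ∈ U, T v ∈ U) (h : F[X]) {v : V} (hv : v ∈ U) :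
    aeval T h v ∈ U := by
  induction h using Polynomial.induction_on with
  | C a => simpa using U.smul_mem a hv
  | add p q hp hq => simpa using U.add_mem hp hq
  | monomial n a ih =>
    rw [pow_succ', ← mul_assoc, mul_comm (C a) X, mul_assoc, map_mul, Module.End.mul_apply, aeval_X]
    exact hU _ ih

theorem perp_invt {g : OG Q} {U : Submodule F V} (hU : ∀ v ∈ U, g.1 v ∈ U) : ∀ v ∈ perp Q U, g.1 v ∈ perp Q U :=
  fun v hv => mem_perp.mpr fun u hu => by
    rw [← img_eq_of_le hU, mem_img] at hu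
    rw [← OG.polar_inv]
    exact mem_perp.mp hv _ hu

variable [Finite F]

theorem dick_spin_extId (hQ : Nondeg Q) (h2 : (2 : F) ≠ 0) {U : Submodule F V} (hU : U ⊓ perp Q U = ⊥)
    {ε : OG (Q.comp U.subtype) →* OG Q} (h3 : ∀ g (u : U), (ε g).1 u = g.1 u) (h4 : ∀ g, ∀ w ∈ perp Q U, (ε g).1 w = w)
    (g : OG (Q.comp U.subtype)) : dick (ε g) = dick g ∧ spin (ε g) = spin g := by
  have h₁ := nondeg_restrict hU
  have hc := (LinearMap.BilinForm.isCompl_orthogonal_iff_disjoint (polarBilin_isRefl Q)).mpr (disjoint_iff.mpr hU)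
  refine h₁.refl_induction (h₁.nonExc_of_two h2) (fun g => dick (ε g) = dick g ∧ spin (ε g) = spin g) ?_ ?_ g
  · rw [map_one, dick_one, dick_one, hQ.spin_one, h₁.spin_one]
    exact ⟨rfl, rfl⟩
  · rintro v hv g ⟨k1, k2⟩
    have e : ε (refl _ v) = refl Q v := OG.ext' fun x => by
      obtain ⟨u, hu, w, hw, rfl⟩ := Submodule.mem_sup.mp (hc.sup_eq_top ▸ Submodule.mem_top : x ∈ U ⊔ perp Q U)
      rw [map_add, map_add, h4 _ w hw, h3 _ ⟨u, hu⟩, refl_of_polar_eq_zero (x := w)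
        (by rw [polar_comm]; exact mem_perp.mp hw _ v.2), refl_apply, refl_apply]
      rfl
    have hv' : Q v ≠ 0 := hv
    rw [map_mul, e, hQ.dick_refl_mul hv', h₁.dick_refl_mul hv, hQ.spin_mul (hQ.nonExc_of_two h2),
      h₁.spin_mul (h₁.nonExc_of_two h2), hQ.spin_refl hv', h₁.spin_refl hv, k1, k2]
    exact ⟨rfl, rfl⟩

theorem exists_spin_neg_of_odd (hQ : Nondeg Q) (h2 : (2 : F) ≠ 0) {g : OG Q} (h1 : ∀ v, g.1 v = v → v = 0)
    (h3 : ∀ v, g.1 v = -v → v = 0) {k : ℕ} (hk : finrank F V = 2 * k) (ho : Odd k) :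
    ∃ z : OG Q, dick z = 1 ∧ spin z = -1 ∧ Commute z g := by
  have hN := hQ.nonExc_of_two h2
  obtain ⟨μ, hμ0, hμ⟩ := exists_nonsquare_of_two h2
  obtain ⟨y, y1, y2, y3⟩ := hQ.exists_invol_simil ⟨k, by omega⟩ (Units.mk0 μ hμ0) hμ
  obtain ⟨X, x1, x2⟩ := GL.OrthConj.exists_comm_quad (A := (g.1 : End F V)) h1 h3 hQ (Q' := μ • Q)
    (nondeg_of fun x hx => hQ.eq_zero fun v => by simpa [polar_smul, hμ0] using hx v) g.2 (by simp)
  have x3 : Function.Injective X := (injective_iff_map_eq_zero _).mpr fun v hv => hQ.eq_zero fun u => by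
    have := polar_map_of_isom X x2 v u
    simpa [hv, polar_smul, hμ0] using this.symm
  let c := Semi.ofSimil (Q := Q) (LinearEquiv.ofInjectiveEndo X x3) (Units.mk0 μ hμ0) x2
  have c1 : c * Semi.ofOG Q g = Semi.ofOG Q g * c := Semi.ext' x1 rfl (by simp)
  have c2 : Semi.cj Q c g = g := Semi.ofOG_injective (by rw [Semi.ofOG_cj, c1, mul_inv_cancel_right])
  obtain ⟨h, hh⟩ := Semi.exists_ofOG (s := y⁻¹ * c) (by rw [Semi.mul_σ, Semi.inv_σ, y1]; rfl) (Units.ext (by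
    rw [Semi.mul_c_val, Semi.inv_c_val, Semi.inv_σ, y1, y2]; exact inv_mul_cancel₀ hμ0))
  have d1 := det_of_comm_fpf hQ h1 h3 hk (c := c) rfl c2
  have d2 : LinearMap.det (y.toLin y1 : V →ₗ[F] V) = (-μ) ^ k := by
    have := (det_of_sq_eq (LinearMap.toMatrix (finBasis F V) (finBasis F V) (y.toLin y1 : V →ₗ[F] V)) hμ (by
      rw [← LinearMap.toMatrix_mul, show (y.toLin y1 : V →ₗ[F] V) * (y.toLin y1 : V →ₗ[F] V) = algebraMap F _ μ from
        LinearMap.ext fun v => congrArg (fun s : Semi Q => s.e v) y3, LinearMap.toMatrix_algebraMap])).2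
    rwa [LinearMap.det_toMatrix, Fintype.card_fin, hk, Nat.mul_div_cancel_left _ two_pos] at this
  have d3 : dick h = -1 := (Int.units_eq_one_or _).resolve_left fun d => by
    have e : (c.toLin rfl : V →ₗ[F] V) = (y.toLin y1 : V →ₗ[F] V) ∘ₗ h.1 := LinearMap.ext fun v => by
      change c.e v = y.e ((Semi.ofOG Q h).e v)
      rw [hh]; simp
    rw [e, LinearMap.det_comp, d2, (hQ.det_eq_one_iff h2 h).mpr d, mul_one, ho.neg_pow] at d1
    have h5 : 2 * μ ^ k = 0 := by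
      change _ = μ ^ k at d1
      linear_combination -d1
    exact mul_ne_zero h2 (pow_ne_zero _ hμ0) h5
  obtain ⟨e1, e2⟩ := hQ.dick_spin_cj hN y⁻¹ h
  refine ⟨Semi.cj Q y⁻¹ h * h, by rw [hQ.dick_mul hN, e1, Int.units_mul_self], ?_, ?_⟩
  · rw [hQ.spin_mul hN, e2, d3, if_neg (by decide), map_inv, Semi.sc_apply, y2, Units.val_mk0,
      sqc_eq_neg_one_iff.mpr hμ, mul_right_comm, Int.units_mul_self, one_mul]; rfl
  · refine Commute.of_map Semi.ofOG_injective ?_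
    have : Semi.ofOG Q (Semi.cj Q y⁻¹ h * h) = (y * y)⁻¹ * c * c := by rw [map_mul, Semi.ofOG_cj, hh]; group
    rw [this, y3]
    exact ((Commute.inv_left (Semi.scal_comm rfl _).symm).mul_left c1).mul_left c1

theorem not_plus_of_min (hQ : Nondeg Q) (h2 : (2 : F) ≠ 0) {r : ℕ} (hr : r.Prime) (hrF : (r : F) ≠ 0) {g : OG Q}
    (hg : g ^ r = 1) (h1 : ∀ v, g.1 v = v → v = 0) {k : ℕ} (hk0 : 0 < k) (hk : finrank F V = 2 * k) (he : Even k)
    (hmin : ∀ U : Submodule F V, (∀ v ∈ U, g.1 v ∈ U) → U ⊓ perp Q U = ⊥ → U = ⊥ ∨ U = ⊤)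
    (φ : V ≃ₗ[F] (Fin k ⊕ Fin k → F)) : ¬ ∀ v, qPlus k F (φ v) = Q v := by
  intro hφ
  have := Fintype.ofFinite F
  have := Fact.mk hr
  have : Finite V := Module.finite_of_finite F
  have := Module.nontrivial_of_finrank_pos (by omega : 0 < finrank F V)
  have hT := end_pow_eq_one hg
  have hss := GL.SemiSimple.isSemisimple_of_pow_eq_one hrF hT
  obtain ⟨L, _, _, z, W, _, _, T', e, e1, e2, -⟩ := GL.SemiSimple.exists_field_summand hss ⊤ (by simp) top_ne_bot
  have : FiniteDimensional F (L × W) := e.finiteDimensional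
  have : FiniteDimensional F L := .of_surjective (LinearMap.fst F L W) Prod.fst_surjective
  have : Finite L := Module.finite_of_finite F
  let i : L →ₗ[F] V := e.symm ∘ₗ LinearMap.inl F L W
  have i1 : Function.Injective i := e.symm.injective.comp LinearMap.inl_injective
  have i2 : ∀ y, g.1 (i y) = i (z * y) := fun y => e.injective (by simpa [i] using e1 (i y))
  have i3 : ∀ (S : End F V) (w : L), (∀ y, S (i y) = i (w * y)) → ∀ (h : F[X]) y,
      aeval S h (i y) = i (aeval w h * y) := fun S w hS h => by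
    induction h using Polynomial.induction_on with
    | C a => intro y; simp [← Algebra.smul_def]
    | add p q hp hq => intro y; simp [hp, hq, add_mul]
    | monomial n a ih =>
      intro y
      rw [pow_succ, ← mul_assoc, map_mul, map_mul _ _ X, Module.End.mul_apply, aeval_X, aeval_X, hS, ih, mul_assoc]
  have z1 : z ^ r = 1 := i1 (by simpa [hT] using (i3 g.1 z i2 (X ^ r) 1).symm)
  have z2 : orderOf z = r := orderOf_eq_prime z1 (by
    rintro rfl
    exact one_ne_zero (i1 ((h1 _ (by rw [i2, one_mul])).trans (map_zero i).symm)))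
  have z0 : z ≠ 0 := by rintro rfl; simp [hr.ne_zero] at z1
  let Fr := FiniteField.frobeniusAlgHom F L
  have f1 : ∀ n y, (Fr ^ n) y = y ^ Fintype.card F ^ n := fun n y => by
    simp [Fr, AlgHom.coe_pow, FiniteField.coe_frobeniusAlgHom, pow_iterate]
  have f2 : ∀ n, finrank F L ∣ n ↔ (Fintype.card F : ZMod r) ^ n = 1 := fun n => by
    rw [← FiniteField.orderOf_frobeniusAlgHom, orderOf_dvd_iff_pow_eq_one, ← Nat.cast_pow, ← Nat.cast_one,
      ZMod.natCast_eq_natCast_iff, ← z2, ← (isOfFinOrder_iff_pow_eq_one.mpr ⟨r, hr.pos, z1⟩).pow_eq_pow_iff_modEq,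
      ← f1, pow_one]
    refine ⟨fun h => by rw [show Fr ^ n = 1 from h]; rfl, fun h => AlgHom.ext fun y => ?_⟩
    obtain ⟨p, rfl⟩ := e2 y
    rw [← aeval_algHom_apply, h]; rfl
  have f3 : (Fintype.card F : ZMod r) ^ k = 1 := by
    let ρ : OG Q →* Function.End V := ⟨⟨fun g v => g.1 v, rfl⟩, fun _ _ => rfl⟩
    have := GL.OrthConj.tp_modEq (Q := Q) (map_zero Q) hr (ρ g) (by rw [← map_pow, hg, map_one]) g.2
      fun v => ⟨h1 v, by rintro rfl; exact map_zero g.1⟩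
    rw [GL.OrthConj.tp_congr φ.toEquiv hφ, GL.OrthConj.tp_qPlus, ← ZMod.intCast_eq_intCast_iff] at this
    simpa using this
  let U := LinearMap.range i
  have u1 : ∀ v ∈ U, g.1 v ∈ U := by rintro _ ⟨y, rfl⟩; exact ⟨_, (i2 y).symm⟩
  have u2 : finrank F U = finrank F L := LinearMap.finrank_range_of_inj i1
  have u3 : U ≠ ⊥ := fun h => by rw [h, finrank_bot] at u2; exact Module.finrank_pos.ne u2
  have u4 : U ≤ perp Q U := by
    by_contra h
    have := (hmin U u1 ((Submodule.eq_bot_iff _).mpr ?_)).resolve_left u3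
    · rw [this, finrank_top, hk] at u2
      have := Nat.le_of_dvd hk0 ((f2 k).mpr f3)
      omega
    rintro _ ⟨⟨y, rfl⟩, hy⟩
    by_contra h0
    refine h ?_
    rintro _ ⟨y', rfl⟩
    obtain ⟨p, hp⟩ := e2 (y' / y)
    have := aeval_mem (T := g.1) (perp_invt u1) p hy
    rwa [i3 _ z i2, hp, div_mul_cancel₀ _ (by rintro rfl; simp at h0)] at this
  obtain ⟨U', u5, u6⟩ := Module.End.isSemisimple_iff.mp hss (perp Q U) (perp_invt u1)
  have u7 : U ⊔ U' = ⊤ := (hmin _ (fun v hv => by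
      obtain ⟨a, ha, b, hb, rfl⟩ := Submodule.mem_sup.mp hv
      rw [map_add]; exact Submodule.add_mem_sup (u1 a ha) (u5 hb)) ((Submodule.eq_bot_iff _).mpr (by
      rintro v ⟨hv, hv'⟩
      obtain ⟨a, ha, b, hb, rfl⟩ := Submodule.mem_sup.mp hv
      rw [SetLike.mem_coe, perp_sup] at hv'
      obtain rfl : b = 0 := Submodule.disjoint_def.mp u6.disjoint b (by simpa using sub_mem hv'.1 (u4 ha)) hb
      refine hQ.eq_zero fun x => ?_
      obtain ⟨c, hc, d, hd, rfl⟩ := Submodule.mem_sup.mp (u6.sup_eq_top ▸ Submodule.mem_top : x ∈ perp Q U ⊔ U')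
      rw [polar_add_right, polar_comm Q _ d, mem_perp.mp hv'.2 d hd, add_zero, add_zero, mem_perp.mp hc a ha]))).resolve_left fun h => u3 (le_bot_iff.mp (h ▸ le_sup_left))
  have u8 : finrank F L = k := by
    have a1 := Submodule.finrank_add_eq_of_isCompl u6
    have a2 := hQ.finrank_perp U
    have a3 := Submodule.finrank_sup_add_finrank_inf_eq U U'
    rw [u7, finrank_top, disjoint_iff.mp (u6.disjoint.mono_left u4), finrank_bot] at a3
    omega
  obtain ⟨j, rfl⟩ := he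
  have f4 : (Fintype.card F : ZMod r) ^ j = -1 := (mul_self_eq_one_iff.mp (by rw [← pow_add, f3])).resolve_left
    fun h => by have := Nat.le_of_dvd (by omega) ((f2 j).mpr h); omega
  have f5 : (Fr ^ j) z = z⁻¹ := by
    refine eq_inv_of_mul_eq_one_left ?_
    rw [f1, ← pow_succ, ← orderOf_dvd_iff_pow_eq_one, z2, ← ZMod.natCast_eq_zero_iff]
    simp [f4]
  have hf := minpoly.irreducible (Algebra.IsIntegral.isIntegral (R := F) z)
  have p1 : aeval (g.1 : End F V) (minpoly F z) = 0 := LinearMap.ext fun v => by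
    obtain ⟨_, ⟨y, rfl⟩, b, hb, rfl⟩ := Submodule.mem_sup.mp (u7 ▸ Submodule.mem_top : v ∈ U ⊔ U')
    rw [map_add, i3 _ z i2, minpoly.aeval, zero_mul, map_zero, zero_add]
    refine Submodule.disjoint_def.mp u6.disjoint _ (mem_perp.mpr ?_) (aeval_mem (T := g.1) (U := U') (fun v hv => u5 hv) _ hb)
    rintro _ ⟨y, rfl⟩
    rw [polar_comm, polar_aeval, i3 _ z⁻¹ (fun y => g.1.injective (by
      rw [LinearEquiv.coe_coe, OG.apply_inv_apply, i2, mul_inv_cancel_left₀ z0])), ← f5, aeval_algHom_apply]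
    simp
  obtain ⟨v, hv⟩ := hQ.exists_Q_ne_zero
  let X' : Submodule F V := LinearMap.range (LinearMap.applyₗ v ∘ₗ (aeval (g.1 : End F V)).toLinearMap)
  have x1 : ∀ X₀ : Submodule F V, (∀ v ∈ X₀, g.1 v ∈ X₀) → ∀ x ∈ X₀, x ∈ X' → x ≠ 0 → v ∈ X₀ := by
    rintro X₀ h _ hx ⟨p, rfl⟩ h0
    obtain ⟨a, b, hab⟩ := hf.coprime_iff_not_dvd.mpr (show ¬ _ ∣ p by
      rintro ⟨q, rfl⟩
      simp [p1] at h0)
    have := aeval_mem (T := g.1) h b hx
    simp only [LinearMap.comp_apply, AlgHom.toLinearMap_apply, LinearMap.applyₗ_apply_apply] at this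
    rwa [← Module.End.mul_apply, ← map_mul, ← sub_eq_iff_eq_add'.mpr hab.symm, map_sub, map_mul, p1, mul_zero,
      sub_zero, map_one] at this
  have x2 : ∀ x ∈ X', g.1 x ∈ X' := by rintro _ ⟨p, rfl⟩; exact ⟨X * p, by simp⟩
  have x3 : v ∈ X' := ⟨1, by simp⟩
  have x4 : polar Q v v ≠ 0 := by rw [polar_self']; exact mul_ne_zero h2 hv
  have x5 := (hmin X' x2 ((Submodule.eq_bot_iff _).mpr fun x hx => by_contra fun h0 =>
    x4 (mem_perp.mp (x1 _ (perp_invt x2) x hx.2 hx.1 h0) v x3))).resolve_left fun h => by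
      rw [h, Submodule.mem_bot] at x3; simp [x3] at hv
  obtain ⟨x, hx, hx0⟩ := Submodule.exists_mem_ne_zero_of_ne_bot u3
  have := x1 U u1 x hx (x5 ▸ Submodule.mem_top) hx0
  exact x4 (mem_perp.mp (u4 this) v this)

theorem exists_spin_neg_of_fpf (h2 : (2 : F) ≠ 0) {r : ℕ} (hr : r.Prime) (hro : Odd r) (hrF : (r : F) ≠ 0) (n : ℕ) :
    ∀ (V : Type v) [AddCommGroup V] [Module F V] [FiniteDimensional F V] [Nontrivial V] (Q : QuadraticForm F V),
      finrank F V = n → Nondeg Q → ∀ g : OG Q, g ^ r = 1 → (∀ v, g.1 v = v → v = 0) →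
        ∃ z : OG Q, dick z = 1 ∧ spin z = -1 ∧ Commute z g := by
  induction n using Nat.strong_induction_on with
  | _ n ih =>
  intro V _ _ _ _ Q hn hQ g hg h1
  have h3 : ∀ v, g.1 v = -v → v = 0 := fun v hv => h1 v (fpf_neg hro hg hv)
  by_cases hmin : ∀ U : Submodule F V, (∀ v ∈ U, g.1 v ∈ U) → U ⊓ perp Q U = ⊥ → U = ⊥ ∨ U = ⊤
  · obtain ⟨B, hA, hB, -⟩ := exists_alt_of_fpf hQ h1 h3
    obtain ⟨k, hk⟩ := GL.Alt.even_finrank hA hB
    have hk0 : 0 < k := by have := Module.finrank_pos (R := F) (M := V); omega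
    rw [← two_mul] at hk
    rcases Nat.even_or_odd k with he | ho
    · obtain ⟨a, b, hab⟩ := exists_aniso F
      obtain ⟨φ, hφ⟩ := (hQ.classify_even' hk0 hk hab).resolve_left fun ⟨φ, hφ⟩ =>
        not_plus_of_min hQ h2 hr hrF hg h1 hk0 hk he hmin φ hφ
      obtain ⟨h4, h5⟩ := hQ.dick_spin_neg h2
      refine ⟨negOG Q, by rw [h4, hk]; simp, ?_, negOG_comm g⟩
      rw [h5, ← disc_of_isom (nondeg_qMinus _ (disc_ne_zero_of_anisotropic hab)) φ hφ,
        disc_qMinus_of_anisotropic h2 _ hab, Nat.sub_add_cancel hk0, hk, pow_mul, Int.units_sq, one_pow, one_mul]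
      obtain ⟨j, rfl⟩ := he
      rw [← two_mul, pow_mul, Int.units_sq, one_pow]
    · exact exists_spin_neg_of_odd hQ h2 h1 h3 hk ho
  · push Not at hmin
    obtain ⟨U, u1, u2, u3, u4⟩ := hmin
    have := Submodule.nontrivial_iff_ne_bot.mpr u3
    obtain ⟨t, t1, t2⟩ := (Semi.ofOG Q g).exists_restrict (U := U) (simg_eq_of_le u1)
    obtain ⟨w, hw⟩ := (nondeg_restrict u2).exists_Q_ne_zero
    obtain ⟨g₀, rfl⟩ := Semi.exists_ofOG (s := t) t2 (Units.ext (mul_right_cancel₀ hw (by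
      have := t.map_Q w
      rw [t2] at this
      rw [Units.val_one, one_mul]
      refine this.symm.trans ?_
      change Q (t.e w) = Q w
      rw [t1]; simp)))
    have t3 : ∀ u : U, (g₀.1 u : V) = g.1 u := t1
    obtain ⟨z, z1, z2, z3⟩ := ih _ (hn ▸ Submodule.finrank_lt u4) U _ rfl (nondeg_restrict u2) g₀
      (OG.ext' fun v => Subtype.ext (by
        have : ∀ n : ℕ, ((g₀ ^ n).1 v : V) = (g ^ n).1 v := fun n => by
          induction n with
          | zero => rfl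
          | succ n ih => rw [pow_succ', pow_succ', OG.mul_apply, OG.mul_apply, t3, ih]
        rw [this, hg]; rfl)) fun v hv => Subtype.ext (h1 _ (by rw [← t3, hv]))
    have hc := (LinearMap.BilinForm.isCompl_orthogonal_iff_disjoint (polarBilin_isRefl Q)).mpr (disjoint_iff.mpr u2)
    obtain ⟨ε, e1, e2⟩ := exists_extId (Q := Q) hc fun u hu w hw => mem_perp.mp hw u hu
    obtain ⟨e3, e4⟩ := dick_spin_extId hQ h2 u2 e1 e2 z
    refine ⟨ε z, e3.trans z1, e4.trans z2, OG.ext' fun x => ?_⟩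
    obtain ⟨u, hu, w, hw, rfl⟩ := Submodule.mem_sup.mp (hc.sup_eq_top ▸ Submodule.mem_top : x ∈ U ⊔ perp Q U)
    rw [OG.mul_apply, OG.mul_apply, map_add, map_add, map_add, map_add, e2 _ w hw, e2 _ _ (perp_invt u1 w hw),
      ← t3 ⟨u, hu⟩, e1, e1 z ⟨u, hu⟩, ← t3, ← OG.mul_apply, z3.eq, OG.mul_apply]

theorem exists_conj_OG (hQ : Nondeg Q) {r : ℕ} (hro : Odd r) (hrF : (r : F) ≠ 0) {g : OG Q} (hg : g ^ r = 1)
    {d : Semi Q} (hd : d.σ = 1) : ∃ h : OG Q, h * g * h⁻¹ = Semi.cj Q d g := by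
  have hT := end_pow_eq_one hg
  refine isConj_iff.mp (GL.OrthConj.isConj_OG hQ g _ (d.toLin hd) (fun v => (d.cj_apply_e g v).symm)
    (fun v hv h => ?_) fun v hv => fpf_neg hro hg hv)
  obtain ⟨x, rfl⟩ := mem_resSp.1 hv
  simpa using GL.AltConj.semisimple_of_squarefree (A := g.1) (separable_X_pow_sub_C 1 hrF one_ne_zero).squarefree
    (by simp [hT]) 1 x (by simpa [sub_eq_zero] using h)

end General

section Coord

variable {F : Type u} [Field F] [Finite F] {ι : Type} [Fintype ι] [DecidableEq ι] {Q : QuadraticForm F (ι → F)}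
  (hQ : Nondeg Q) (hN : NonExc Q) (hev : Even (Fintype.card ι)) (h2 : (2 : F) ≠ 0) {r : ℕ} (hr : r.Prime)
  (hro : Odd r) (hrF : (r : F) ≠ 0)
include hQ hN hev h2 hr hro hrF

theorem exists_conj_Om [Nonempty ι] {g : OG Q} (hg : g ^ r = 1) {d : Semi Q} (hd : d.σ = 1) (hd1 : dl d = 1) :
    ∃ h ∈ Om Q, h * g * h⁻¹ = Semi.cj Q d g := by
  obtain ⟨h, hh⟩ := exists_conj_OG hQ hro hrF hg hd
  suffices ∃ z, Commute z g ∧ h * z ∈ Om Q by
    obtain ⟨z, h1, h3⟩ := this
    exact ⟨_, h3, by rw [← hh, mul_assoc h, h1.eq]; group⟩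
  by_cases h1 : ∀ v, g.1 v = v → v = 0
  · obtain ⟨z, z1, z2, z3⟩ := exists_spin_neg_of_fpf h2 hr hro hrF _ _ Q rfl hQ g hg h1
    obtain ⟨k, hk⟩ := id hev
    have h4 : ((Semi.ofOG Q h)⁻¹ * d).σ = 1 := by simp [hd]
    have h5 := det_of_comm_fpf hQ h1 (fun v hv => h1 v (fpf_neg hro hg hv)) (k := k) (by simp; omega) h4 (by
      rw [map_mul, MulAut.mul_apply, ← hh, ← map_inv, Semi.cj_ofOG]; group)
    rw [Semi.sdet_toLin, show k = Fintype.card ι / 2 by omega, ← dl_eq_one_iff hQ hN hev h2,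
      dl_mul hQ hN hev (by simp) hd, hd1, mul_one, dl_inv hQ hN hev rfl, dl_ofOG hQ hN hev] at h5
    rcases Int.units_eq_one_or (spin h) with h6 | h6
    · exact ⟨1, Commute.one_left g, (hQ.mem_Om_iff hN _).mpr (by simp [h5, h6])⟩
    · exact ⟨z, z3, (hQ.mem_Om_iff hN _).mpr (by simp [hQ.dick_mul hN, hQ.spin_mul hN, h5, h6, z1, z2])⟩
  · have hT := end_pow_eq_one hg
    refine hQ.exists_mul_mem_Om_of_refl hN (fun z => Commute z g) (fun s t => Commute.mul_left) (T := fixSp g)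
      ((Submodule.eq_bot_iff _).mpr fun v hv => ?_) ?_
      (fun v hv => (commute_refl_of_eig one_ne_zero (fixSp_eq_eig g ▸ hv)).symm) h
    · obtain ⟨x, rfl⟩ := mem_resSp.1 (hQ.mem_resSp_iff.mpr fun x hx => mem_perp.mp hv.2 x (mem_fixSp.mpr hx))
      simpa using GL.AltConj.semisimple_of_squarefree (A := g.1) (separable_X_pow_sub_C 1 hrF one_ne_zero).squarefree
        (by simp [hT]) 1 x (by simpa [sub_eq_zero] using mem_fixSp.mp hv.1)
    · have h3 := finrank_res_add_fix g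
      have h4 : (hQ.dickHom hN g) ^ r = 1 := by rw [← map_pow, hg, map_one]
      have h5 : Even (finrank F (resSp g)) := Nat.not_odd_iff_even.mp fun h => by
        change ((-1 : ℤˣ) ^ finrank F (resSp g)) ^ r = 1 at h4
        rw [h.neg_one_pow, hro.neg_one_pow] at h4
        exact absurd h4 (by decide)
      have h6 : 0 < finrank F (fixSp g) := Nat.pos_of_ne_zero fun h => h1 fun v hv => by
        rw [← Submodule.mem_bot (R := F), ← Submodule.finrank_eq_zero.mp h]; exact mem_fixSp.mpr hv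
      rw [Module.finrank_fintype_fun_eq_card] at h3
      obtain ⟨a, ha⟩ := hev
      obtain ⟨b, hb⟩ := h5
      omega

theorem odd_classes (h5 : 5 ≤ Fintype.card ι) {x : MulAut (Cfsg.POmega F Q)} (hx : x ∈ Cfsg.pgoAut F Q)
    (hxr : orderOf x = r) :
    (∀ y, (Cfsg.IsConjUnder (Cfsg.Inn (Cfsg.POmega F Q)) x y ↔
        Cfsg.IsConjUnder ((DG hQ hN hev).map (Phi Q)) x y) ∧
      (Cfsg.IsConjUnder (Cfsg.psoAut F Q) x y ↔ Cfsg.IsConjUnder ((DG hQ hN hev).map (Phi Q)) x y)) ∧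
    ∀ y, Cfsg.IsConjUnder (Cfsg.poAut F Q) x y ↔ Cfsg.IsConjUnder (Cfsg.pgoAut F Q) x y := by
  have : Nonempty ι := Fintype.card_pos_iff.mp (by omega)
  obtain ⟨g, hg, rfl⟩ : ∃ g : OG Q, g ^ r = 1 ∧ x = Phi Q (Semi.ofOG Q g) := by
    rw [pgoAut_eq] at hx
    obtain ⟨s, hs, rfl⟩ := hx
    have hs' : s.σ = 1 := hs
    obtain ⟨a, g, h⟩ := Semi.exists_scal_mul (s := s * s) (by simp [hs']) ⟨s.c, by simp [hs']⟩
    have h1 : Phi Q s ^ r = 1 := hxr ▸ pow_orderOf_eq_one _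
    have h3 : Phi Q (Semi.ofOG Q g) = Phi Q s ^ 2 := by rw [pow_two, ← map_mul, h, Phi_scal_mul]
    obtain ⟨b, hb⟩ := (Phi_eq_one_iff hQ h5 (s := Semi.ofOG Q (g ^ r))).mp (by
      rw [map_pow, map_pow, h3, ← pow_mul, mul_comm, pow_mul, h1, one_pow])
    have h4 : (g ^ r) ^ 2 = 1 := by
      rcases Semi.scal_mul_eq (a := b) (a' := 1) (g := 1) (g' := g ^ r) (by simpa using hb.symm) with h | h
      · rw [h, one_pow]
      · rw [h, one_mul, pow_two, negOG_mul_self]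
    obtain ⟨k, hk⟩ := hro
    refine ⟨g ^ (2 * (k + 1) * (k + 1)), ?_, ?_⟩
    · rw [← pow_mul, show 2 * (k + 1) * (k + 1) * r = r * 2 * ((k + 1) * (k + 1)) by ring, pow_mul, pow_mul g r 2, h4,
        one_pow]
    · rw [map_pow, map_pow, h3, ← pow_mul, show 2 * (2 * (k + 1) * (k + 1)) = r * (r + 2) + 1 by rw [hk]; ring,
        pow_succ, pow_mul, h1, one_pow, one_mul]
  have k1 : Cfsg.Inn (Cfsg.POmega F Q) ≤ Cfsg.psoAut F Q := by
    rw [psoAut_eq hQ h2]
    exact Inn_le_range.trans (Subgroup.map_mono fun g hg => ((hQ.mem_Om_iff hN g).mp hg).1)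
  have k2 : Cfsg.psoAut F Q ≤ (DG hQ hN hev).map (Phi Q) := by
    rw [psoAut_eq hQ h2]
    rintro _ ⟨g, hg, rfl⟩
    exact ⟨_, mem_DG.mpr ⟨rfl, (dl_ofOG hQ hN hev g).trans hg⟩, rfl⟩
  have k3 : ∀ y, Cfsg.IsConjUnder ((DG hQ hN hev).map (Phi Q)) (Phi Q (Semi.ofOG Q g)) y →
      Cfsg.IsConjUnder (Cfsg.Inn (Cfsg.POmega F Q)) (Phi Q (Semi.ofOG Q g)) y := by
    rintro _ ⟨_, ⟨d, hd, rfl⟩, rfl⟩
    obtain ⟨h, h1, h3⟩ := exists_conj_Om hQ hN hev h2 hr hro hrF hg (mem_DG.mp hd).1 (mem_DG.mp hd).2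
    exact ⟨_, (Phi_mem_Inn hQ h5).mpr (ofOG_mem_NO h1), by
      simp only [← map_mul, ← map_inv, h3, ← Semi.ofOG_cj]⟩
  refine ⟨fun y => ⟨⟨fun ⟨a, ha, h⟩ => ⟨a, k2 (k1 ha), h⟩, k3 y⟩, fun ⟨a, ha, h⟩ => ⟨a, k2 ha, h⟩,
    fun h => let ⟨a, ha, h⟩ := k3 y h; ⟨a, k1 ha, h⟩⟩, fun y => ?_⟩
  rw [poAut_eq, pgoAut_eq]
  constructor
  · rintro ⟨_, ⟨h, rfl⟩, h1⟩
    exact ⟨_, ⟨Semi.ofOG Q h, rfl, rfl⟩, h1⟩
  · rintro ⟨_, ⟨d, hd, rfl⟩, rfl⟩
    obtain ⟨h, h3⟩ := exists_conj_OG hQ hro hrF hg (d := d) hd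
    exact ⟨_, ⟨h, rfl⟩, by simp only [MonoidHom.comp_apply, ← map_mul, ← map_inv, h3, ← Semi.ofOG_cj]⟩

end Coord

end Cfsg.Agent.Lib.Forms
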