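import Cfsg.Agent.Lib.Forms.QuadClassify2

/-!
# Quadratic forms over the field of two elements: the character sum (Arf invariant)
-/

set_option autoImplicit false
set_option linter.unusedSectionVars false

namespace Cfsg.Agent.Lib.Forms

open Module QuadraticMap

/-- The non-trivial character of `ZMod 2`. -/
def chi2 (x : ZMod 2) : ℤ := if x = 0 then 1 else -1

theorem chi2_add (x y : ZMod 2) : chi2 (x + y) = chi2 x * chi2 y := by revert x y; decide
theorem chi2_zero : chi2 0 = 1 := rfl
theorem chi2_one : chi2 1 = -1 := rfl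
theorem zmod2_cases (x : ZMod 2) : x = 0 ∨ x = 1 := by revert x; decide

variable {V : Type*} [AddCommGroup V] [Module (ZMod 2) V] [Fintype V]

theorem sum_chi2_eq_zero (l : V → ZMod 2) (hl : ∀ x y, l (x + y) = l x + l y) {v : V} (hv : l v ≠ 0) :
    ∑ x, chi2 (l x) = 0 := by
  have h1 : l v = 1 := (zmod2_cases _).resolve_left hv
  have : ∑ x, chi2 (l x) = ∑ x, chi2 (l (x + v)) := (Equiv.sum_comp (Equiv.addRight v) fun x => chi2 (l x)).symm
  simp only [hl, chi2_add, h1, chi2_one, ← Finset.sum_mul] at this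
  omega

/-- The character sum of a function. -/
def csum (q : V → ZMod 2) : ℤ := ∑ x, chi2 (q x)

theorem csum_equiv {W : Type*} [Fintype W] (q : V → ZMod 2) (q' : W → ZMod 2) (g : V ≃ W) (h : ∀ v, q v = q' (g v)) :
    ∑ x, chi2 (q x) = ∑ x, chi2 (q' x) := by
  simp only [h]
  exact Equiv.sum_comp g fun x => chi2 (q' x)

theorem Nondeg.csum_sq {Q : QuadraticForm (ZMod 2) V} (hQ : Nondeg Q) : csum Q ^ 2 = Fintype.card V := by
  classical
  have h1 : ∀ u, ∑ v, chi2 (Q u) * chi2 (Q v) = ∑ w, chi2 (Q w) * chi2 (polar Q u w) := fun u => by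
    rw [← Equiv.sum_comp (Equiv.addLeft u)]
    refine Finset.sum_congr rfl fun w _ => ?_
    rw [Equiv.coe_addLeft, Q_add, ← chi2_add, ← chi2_add]
    congr 1
    linear_combination (exp := 1) CharTwo.add_self_eq_zero (Q u)
  rw [_root_.sq, csum, Finset.sum_mul_sum]
  simp only [h1]
  rw [Finset.sum_comm, Finset.sum_eq_single 0]
  · simp [chi2_zero]
  · intro w _ hw
    obtain ⟨v, hv⟩ := hQ.exists_polar_ne_zero hw
    rw [← Finset.mul_sum, sum_chi2_eq_zero (fun u => polar Q u w) (fun x y => polar_add_left Q x y w) (v := v)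
      (by rwa [polar_comm]), mul_zero]
  · simp

theorem Nondeg.csum_ne_zero {Q : QuadraticForm (ZMod 2) V} (hQ : Nondeg Q) : csum Q ≠ 0 := by
  intro h
  have := hQ.csum_sq
  rw [h] at this
  have h2 := Fintype.card_pos (α := V)
  omega

theorem csum_add_polar (Q : QuadraticForm (ZMod 2) V) (w : V) :
    csum (fun v => Q v + polar Q v w) = chi2 (Q w) * csum Q := by
  rw [csum, csum, Finset.mul_sum, ← Equiv.sum_comp (Equiv.addRight w) (fun x => chi2 (Q w) * chi2 (Q x))]
  refine Finset.sum_congr rfl fun v _ => ?_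
  rw [Equiv.coe_addRight, Q_add, ← chi2_add]
  congr 1
  linear_combination (exp := 1) -CharTwo.add_self_eq_zero (Q w)

theorem Nondeg.add_polar_equiv_iff {Q : QuadraticForm (ZMod 2) V} (hQ : Nondeg Q) (w : V) :
    (∃ g : V ≃ₗ[ZMod 2] V, ∀ v, Q v + polar Q v w = Q (g v)) ↔ Q w = 0 := by
  constructor
  · rintro ⟨g, hg⟩
    by_contra hw
    have h1 := csum_add_polar Q w
    have h2 : csum (fun v => Q v + polar Q v w) = csum Q := csum_equiv _ Q g.toEquiv hg
    rw [(zmod2_cases _).resolve_left hw, chi2_one, h2] at h1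
    exact hQ.csum_ne_zero (by omega)
  · intro hw
    let t : V →ₗ[ZMod 2] V := LinearMap.id + ((polarBilin Q).flip w).smulRight w
    have ht : ∀ v, t v = v + polar Q v w • w := fun v => rfl
    have hww : polar Q w w = 0 := by rw [polar_self', hw, mul_zero]
    have hi : Function.Involutive t := fun v => by
      rw [ht, ht, polar_add_left, polar_smul_left, hww, smul_zero, add_zero, add_assoc, ← add_smul,
        CharTwo.add_self_eq_zero, zero_smul, add_zero]
    refine ⟨LinearEquiv.ofInvolutive t hi, fun v => ?_⟩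
    change _ = Q (t v)
    rw [ht, Q_add, Q_smul, hw, polar_smul_right, mul_zero, add_zero, smul_eq_mul]
    congr 1
    generalize polar Q v w = a
    revert a; decide

omit [Fintype V] in
/-- A function on an `F₂`-space polarising to the polar form of `Q` is a quadratic form. -/
theorem exists_quad_of_polar (Q : QuadraticForm (ZMod 2) V) (q : V → ZMod 2)
    (hq : ∀ u v, q (u + v) = q u + q v + polar Q u v) :
    ∃ Q' : QuadraticForm (ZMod 2) V, ⇑Q' = q ∧ ∀ u v, polar Q' u v = polar Q u v := by
  have h0 : q 0 = 0 := by simpa using hq 0 0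
  let Q' : QuadraticForm (ZMod 2) V :=
    { toFun := q
      toFun_smul := fun a x => by rcases zmod2_cases a with rfl | rfl <;> simp [h0]
      exists_companion' := ⟨polarBilin Q, hq⟩ }
  exact ⟨Q', rfl, fun u v => by
    change q (u + v) - q u - q v = _
    rw [hq]; ring⟩

omit [Fintype V] in
theorem Nondeg.exists_eq_add_polar [FiniteDimensional (ZMod 2) V] {Q : QuadraticForm (ZMod 2) V} (hQ : Nondeg Q)
    (q : V → ZMod 2) (hq : ∀ u v, q (u + v) = q u + q v + polar Q u v) : ∃ w, q = fun v => Q v + polar Q v w := by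
  have h0 : q 0 = 0 := by simpa using hq 0 0
  let l : Module.Dual (ZMod 2) V :=
    { toFun := fun v => q v - Q v
      map_add' := fun u v => by rw [hq, Q_add]; ring
      map_smul' := fun a x => by rcases zmod2_cases a with rfl | rfl <;> simp [h0] }
  obtain ⟨w, hw⟩ := hQ.repr l
  refine ⟨w, funext fun v => ?_⟩
  rw [hw]
  change _ = _ + (q v - Q v)
  ring

theorem csum_qPlus (m : ℕ) : csum (qPlus m (ZMod 2)) = 2 ^ m := by
  rw [csum, ← Equiv.sum_comp (Equiv.sumArrowEquivProdArrow _ _ _).symm, Fintype.sum_prod_type,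
    Finset.sum_eq_single 0]
  · simp [qPlus_apply, chi2_zero]
  · intro x _ hx
    obtain ⟨i, hi⟩ := Function.ne_iff.mp hx
    simp only [qPlus_apply, Equiv.sumArrowEquivProdArrow_symm_apply_inl,
      Equiv.sumArrowEquivProdArrow_symm_apply_inr]
    refine sum_chi2_eq_zero (fun y : Fin m → ZMod 2 => ∑ i, x i * y i) (fun y z => ?_) (v := Pi.single i 1) ?_
    · simp [mul_add, Finset.sum_add_distrib]
    · simpa [Pi.single_apply] using hi
  · simp

theorem card_zero_eq (q : V → ZMod 2) : 2 * (Nat.card {v // q v = 0} : ℤ) = Fintype.card V + csum q := by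
  classical
  rw [Nat.card_eq_fintype_card, Fintype.card_subtype, Finset.card_filter, csum, ← Finset.card_univ,
    Finset.card_eq_sum_ones]
  push_cast
  rw [Finset.mul_sum, ← Finset.sum_add_distrib]
  refine Finset.sum_congr rfl fun v _ => ?_
  unfold chi2
  split_ifs <;> simp

end Cfsg.Agent.Lib.Forms
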