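import Cfsg.Agent.Lib.Forms.TriAlt
import Cfsg.Agent.Lib.Forms.OrthTri4
import Cfsg.Agent.Lib.Chev.Tri2
import Cfsg.Agent.Lib.GL.FixedField

/-! The three 8-dimensional modules of `D₄` and alternating sections of `G₂` and `³D₄`. -/

set_option autoImplicit false
set_option maxHeartbeats 400000

namespace Cfsg.Agent.Lib.Forms

open Module QuadraticMap Matrix Cfsg.Lie Cfsg.Agent.Lib.Chev
open scoped MatrixGroups

noncomputable section
attribute [-instance] CStarMatrix.instHMulOfFintypeOfMulOfAddCommMonoid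

section Bil
variable {ι κ μ : Type} [Fintype ι] [Fintype κ] [DecidableEq ι] [DecidableEq κ] (e1 : ι → ℕ) (e2 : κ → ℕ)
  (e3 : μ → ℕ) (c : ℕ → ℕ → Col) (F : Type*) [CommRing F]

/-- The bilinear map with a sparse multiplication table. -/
def Bil : (ι → F) →ₗ[F] (κ → F) →ₗ[F] (μ → F) :=
  ∑ a, (LinearMap.proj a).smulRight (Matrix.mulVecLin (Mat2 e3 e2 (c (e1 a)) (1 : F)))

variable {F}

omit [DecidableEq ι] [DecidableEq κ] in
theorem Bil_apply (v : ι → F) (w : κ → F) : Bil e1 e2 e3 c F v w = ∑ a, v a • (Mat2 e3 e2 (c (e1 a)) (1 : F) *ᵥ w) := by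
  simp [Bil, LinearMap.sum_apply]

/-- Scaling of a sparse vector. -/
def vscal (e : ℕ × ℤ × ℕ × ℕ) (w acc : Vec) : Vec :=
  lf (fun f acc => (f.1, Int.mul e.2.1 f.2.1, Nat.add e.2.2.1 f.2.2.1, Nat.add e.2.2.2 f.2.2.2) :: acc) acc w

/-- Product of sparse vectors. -/
def vbil (v w : Vec) : Vec := lf (fun e acc => vscal e (appM (c e.1) 1 0 0 w) acc) [] v

theorem ev_vscal (t u : F) (e : ℕ × ℤ × ℕ × ℕ) (w acc : Vec) :
    ev e3 t u (vscal e w acc) = ((e.2.1 : F) * t ^ e.2.2.1 * u ^ e.2.2.2) • ev e3 t u w + ev e3 t u acc := by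
  induction w with
  | nil => simp [vscal, ev_nil]
  | cons f w ih =>
    have : vscal e (f :: w) acc = (f.1, Int.mul e.2.1 f.2.1, Nat.add e.2.2.1 f.2.2.1, Nat.add e.2.2.2 f.2.2.2) ::
      vscal e w acc := rfl
    rw [this, ev_cons, ev_cons, ih, smul_add, add_assoc]
    congr 1
    funext a
    simp only [Int.mul_def, Nat.add_eq, Pi.smul_apply, smul_eq_mul]
    split_ifs
    · push_cast; ring
    · simp

variable {e1 e2 e3 c} {t u : F} (h1 : Function.Injective e1) (h2 : Function.Injective e2)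
  (hc1 : ∀ a, (∀ x, e1 x ≠ a) → ∀ b, c a b = []) (hc2 : ∀ a b, (∀ y, e2 y ≠ b) → c a b = [])
include h1 h2 hc1 hc2

theorem ev_vbil (v w : Vec) : Bil e1 e2 e3 c F (ev e1 t u v) (ev e2 t u w) = ev e3 t u (vbil c v w) := by
  induction v with
  | nil => simp [vbil, ev_nil]
  | cons e v ih =>
    have : vbil c (e :: v) w = vscal e (appM (c e.1) 1 0 0 w) (vbil c v w) := rfl
    rw [this, ev_vscal, ev_cons, map_add, LinearMap.add_apply, ih, ← rep2_appM h2 (hc2 e.1), Bil_apply]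
    congr 1
    by_cases h : ∃ a, e1 a = e.1
    · obtain ⟨a, ha⟩ := h
      rw [Finset.sum_eq_single a, if_pos ha.symm, ha]
      · intro b _ hb; rw [if_neg fun h => hb (h1 (h.symm.trans ha.symm)), zero_smul]
      · simp
    · push Not at h
      have h3 : Mat2 e3 e2 (c e.1) (1 : F) = 0 := by ext a b; simp [Mat2, hc1 _ h]
      simp [fun a => (h a).symm, h3]

/-- Invariance of a bilinear map. -/
def Inv3 [Fintype μ] (β : (ι → F) →ₗ[F] (κ → F) →ₗ[F] (μ → F)) (g : Matrix ι ι F) (y : Matrix κ κ F)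
    (z : Matrix μ μ F) : Prop := ∀ l v, β (g *ᵥ l) (y *ᵥ v) = z *ᵥ β l v

theorem inv3_of_check [Fintype μ] {g : Matrix ι ι F} {y : Matrix κ κ F} {z : Matrix μ μ F} {f1 f2 f3 : Vec → Vec}
    (hg : Rep e1 t u g f1) (hy : Rep e2 t u y f2) (hz : Rep e3 t u z f3)
    (h : ∀ a b, eqv (vbil c (f1 (e0 (e1 a))) (f2 (e0 (e2 b)))) (f3 (vbil c (e0 (e1 a)) (e0 (e2 b)))) = true) :
    Inv3 (Bil e1 e2 e3 c F) g y z := by
  have : (Bil e1 e2 e3 c F).compl₁₂ g.mulVecLin y.mulVecLin = (Bil e1 e2 e3 c F).compr₂ z.mulVecLin :=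
    LinearMap.ext_basis (Pi.basisFun F ι) (Pi.basisFun F κ) fun a b => by
      simp only [Pi.basisFun_apply, LinearMap.compl₁₂_apply, LinearMap.compr₂_apply, mulVecLin_apply]
      rw [← ev_e0 (t := t) (u := u) h1, ← ev_e0 (t := t) (u := u) h2, hg, hy, ev_vbil h1 h2 hc1 hc2,
        ev_vbil h1 h2 hc1 hc2, hz, ev_eq_of_eqv _ _ _ (h a b)]
  exact fun l v => LinearMap.congr_fun₂ this l v

end Bil

section Inv
variable {ι κ μ : Type} [Fintype ι] [Fintype κ] [Fintype μ] [DecidableEq ι] [DecidableEq κ] [DecidableEq μ]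
  {F : Type*} [Field F] {β : (ι → F) →ₗ[F] (κ → F) →ₗ[F] (μ → F)}

theorem Inv3.one : Inv3 β 1 1 1 := fun _ _ => by simp

theorem Inv3.mul {g g' : GL ι F} {y y' : GL κ F} {z z' : GL μ F} (h : Inv3 β g y z) (h' : Inv3 β g' y' z') :
    Inv3 β (g * g' : GL ι F) (y * y' : GL κ F) (z * z' : GL μ F) := fun l v => by
  simp only [Units.val_mul, ← mulVec_mulVec]; rw [h, h']

theorem Inv3.inv {g : GL ι F} {y : GL κ F} {z : GL μ F} (h : Inv3 β g y z) :
    Inv3 β (g⁻¹ : GL ι F) (y⁻¹ : GL κ F) (z⁻¹ : GL μ F) := fun l v => by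
  have := h ((g⁻¹ : GL ι F) *ᵥ l) ((y⁻¹ : GL κ F) *ᵥ v)
  simp only [mulVec_mulVec, Units.mul_inv, one_mulVec] at this
  rw [this, mulVec_mulVec, Units.inv_mul, one_mulVec]

end Inv

namespace D4Tri

abbrev I8 := Fin 4 ⊕ Fin 4

/-- Numbering of the coordinates. -/
def e8 : I8 → ℕ := Sum.elim (fun i => i.val) (fun i => 4 + i.val)

theorem e8_inj : Function.Injective e8 := by decide

theorem e8_le {b : ℕ} (h : ∀ y, e8 y ≠ b) : 8 ≤ b := by
  by_contra! h1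
  revert h
  interval_cases b <;> decide

/-- Table lookup. -/
def tab (L : List (List Col)) (a b : ℕ) : Col := (L.getD a []).getD b []

theorem tab_left {L : List (List Col)} {a : ℕ} (h : L.length ≤ a) (b : ℕ) : tab L a b = [] := by
  rw [tab, List.getD_eq_default _ _ h]; rfl

theorem tab_right {L : List (List Col)} (h : ∀ l ∈ L, l.length ≤ 8) (a b : ℕ) (hb : ∀ y, e8 y ≠ b) : tab L a b = [] := by
  refine List.getD_eq_default _ _ (le_trans ?_ (e8_le hb))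
  rcases lt_or_ge a L.length with h1 | h1
  · rw [List.getD_eq_getElem _ _ h1]; exact h _ (List.getElem_mem _)
  · rw [List.getD_eq_default _ _ h1]; simp

def LP0 : List (List Col) := [
  [[], [], [], [(2, -1, 1)], [], [], [(7, 1, 1)], []],
  [[], [], [], [(1, 1, 1)], [], [(7, -1, 1)], [], []],
  [[(7, -1, 1)], [], [], [(4, 1, 1)], [], [], [], []],
  [[], [], [], [], [], [(2, -1, 1)], [(1, 1, 1)], []],
  [[(2, -1, 1)], [], [], [], [], [], [(4, 1, 1)], []],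
  [[(1, 1, 1)], [], [], [], [], [(4, -1, 1)], [], []],
  [[], [], [], [(0, 1, 1)], [(7, -1, 1)], [], [], []],
  [[], [(7, 1, 1)], [], [(5, -1, 1)], [], [], [], []],
  [[], [], [], [], [(2, -1, 1)], [], [(0, 1, 1)], []],
  [[], [(2, 1, 1)], [], [], [], [], [(5, -1, 1)], []],
  [[], [], [(7, -1, 1)], [(6, 1, 1)], [], [], [], []],
  [[], [], [], [], [(1, -1, 1)], [(0, 1, 1)], [], []],
  [[(5, 1, 1)], [(4, -1, 1)], [], [], [], [], [], []],
  [[], [], [], [], [], [], [(3, 1, 1)], [(2, -1, 1)]],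
  [[], [], [(1, 1, 1)], [], [], [(6, -1, 1)], [], []],
  [[(6, 1, 1)], [], [(4, -1, 1)], [], [], [], [], []],
  [[], [], [], [], [], [(3, -1, 1)], [], [(1, 1, 1)]],
  [[(3, 1, 1)], [], [], [], [], [], [], [(4, -1, 1)]],
  [[], [(0, 1, 1)], [], [], [(5, -1, 1)], [], [], []],
  [[], [], [(0, -1, 1)], [], [(6, 1, 1)], [], [], []],
  [[], [(6, 1, 1)], [(5, -1, 1)], [], [], [], [], []],
  [[], [], [], [], [(3, 1, 1)], [], [], [(0, -1, 1)]],
  [[], [(3, 1, 1)], [], [], [], [], [], [(5, -1, 1)]],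
  [[], [], [(3, -1, 1)], [], [], [], [], [(6, 1, 1)]],
  [[(0, 1, 1)], [(1, -1, 1)], [], [], [(4, -1, 1)], [(5, 1, 1)], [], []],
  [[], [(1, 1, 1)], [(2, -1, 1)], [], [], [(5, -1, 1)], [(6, 1, 1)], []],
  [[], [], [(2, 1, 1)], [(3, 1, 1)], [], [], [(6, -1, 1)], [(7, -1, 1)]],
  [[(0, -1, 1)], [(1, -1, 1)], [], [], [(4, 1, 1)], [(5, 1, 1)], [], []]]

def LP1 : List (List Col) := [
  [[], [], [], [(2, -1, 1)], [], [], [(7, 1, 1)], []],
  [[], [], [], [(1, 1, 1)], [], [(7, -1, 1)], [], []],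
  [[], [], [], [], [], [(2, -1, 1)], [(1, 1, 1)], []],
  [[], [], [], [(0, -1, 1)], [(7, 1, 1)], [], [], []],
  [[], [], [], [], [(2, 1, 1)], [], [(0, -1, 1)], []],
  [[], [], [], [], [(1, -1, 1)], [(0, 1, 1)], [], []],
  [[(7, 1, 1)], [], [], [(4, -1, 1)], [], [], [], []],
  [[(2, 1, 1)], [], [], [], [], [], [(4, -1, 1)], []],
  [[], [(7, 1, 1)], [], [(5, -1, 1)], [], [], [], []],
  [[], [(2, 1, 1)], [], [], [], [], [(5, -1, 1)], []],
  [[(1, 1, 1)], [], [], [], [], [(4, -1, 1)], [], []],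
  [[], [], [(7, -1, 1)], [(6, 1, 1)], [], [], [], []],
  [[], [], [], [], [], [], [(3, 1, 1)], [(2, -1, 1)]],
  [[], [(0, 1, 1)], [], [], [(5, -1, 1)], [], [], []],
  [[], [], [(1, 1, 1)], [], [], [(6, -1, 1)], [], []],
  [[], [], [], [], [], [(3, -1, 1)], [], [(1, 1, 1)]],
  [[], [], [(0, 1, 1)], [], [(6, -1, 1)], [], [], []],
  [[], [], [], [], [(3, -1, 1)], [], [], [(0, 1, 1)]],
  [[(5, 1, 1)], [(4, -1, 1)], [], [], [], [], [], []],
  [[(6, -1, 1)], [], [(4, 1, 1)], [], [], [], [], []],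
  [[(3, -1, 1)], [], [], [], [], [], [], [(4, 1, 1)]],
  [[], [(6, 1, 1)], [(5, -1, 1)], [], [], [], [], []],
  [[], [(3, 1, 1)], [], [], [], [], [], [(5, -1, 1)]],
  [[], [], [(3, -1, 1)], [], [], [], [], [(6, 1, 1)]],
  [[(0, -1, 1)], [(1, -1, 1)], [], [], [(4, 1, 1)], [(5, 1, 1)], [], []],
  [[], [(1, 1, 1)], [(2, -1, 1)], [], [], [(5, -1, 1)], [(6, 1, 1)], []],
  [[(0, 1, 1)], [(1, -1, 1)], [], [], [(4, -1, 1)], [(5, 1, 1)], [], []],
  [[], [], [(2, 1, 1)], [(3, 1, 1)], [], [], [(6, -1, 1)], [(7, -1, 1)]]]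

def LP2 : List (List Col) := [
  [[], [], [], [(2, -1, 1)], [], [], [(7, 1, 1)], []],
  [[], [], [], [(1, 1, 1)], [], [(7, -1, 1)], [], []],
  [[], [], [], [(0, -1, 1)], [(7, 1, 1)], [], [], []],
  [[(7, -1, 1)], [], [], [(4, 1, 1)], [], [], [], []],
  [[], [(7, -1, 1)], [], [(5, 1, 1)], [], [], [], []],
  [[], [], [(7, -1, 1)], [(6, 1, 1)], [], [], [], []],
  [[], [], [], [], [], [(2, 1, 1)], [(1, -1, 1)], []],
  [[], [], [], [], [(2, -1, 1)], [], [(0, 1, 1)], []],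
  [[(2, 1, 1)], [], [], [], [], [], [(4, -1, 1)], []],
  [[], [(2, 1, 1)], [], [], [], [], [(5, -1, 1)], []],
  [[], [], [], [], [(1, -1, 1)], [(0, 1, 1)], [], []],
  [[(1, 1, 1)], [], [], [], [], [(4, -1, 1)], [], []],
  [[], [(0, 1, 1)], [], [], [(5, -1, 1)], [], [], []],
  [[(5, 1, 1)], [(4, -1, 1)], [], [], [], [], [], []],
  [[], [], [(1, 1, 1)], [], [], [(6, -1, 1)], [], []],
  [[], [], [(0, 1, 1)], [], [(6, -1, 1)], [], [], []],
  [[(6, 1, 1)], [], [(4, -1, 1)], [], [], [], [], []],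
  [[], [(6, -1, 1)], [(5, 1, 1)], [], [], [], [], []],
  [[], [], [], [], [], [], [(3, 1, 1)], [(2, -1, 1)]],
  [[], [], [], [], [], [(3, 1, 1)], [], [(1, -1, 1)]],
  [[], [], [], [], [(3, 1, 1)], [], [], [(0, -1, 1)]],
  [[(3, -1, 1)], [], [], [], [], [], [], [(4, 1, 1)]],
  [[], [(3, 1, 1)], [], [], [], [], [], [(5, -1, 1)]],
  [[], [], [(3, -1, 1)], [], [], [], [], [(6, 1, 1)]],
  [[], [], [(2, 1, 1)], [(3, 1, 1)], [], [], [(6, -1, 1)], [(7, -1, 1)]],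
  [[], [(1, 1, 1)], [(2, -1, 1)], [], [], [(5, -1, 1)], [(6, 1, 1)], []],
  [[(0, -1, 1)], [(1, -1, 1)], [], [], [(4, 1, 1)], [(5, 1, 1)], [], []],
  [[(0, 1, 1)], [(1, -1, 1)], [], [], [(4, -1, 1)], [(5, 1, 1)], [], []]]

def LM : List (List Col) := [
  [[(4, 1, 1)], [(1, -1, 1)], [(2, -1, 1)], [(3, -1, 1)], [], [], [], []],
  [[], [], [(7, 1, 1)], [(6, -1, 1)], [(1, -1, 1)], [(4, -1, 1)], [], []],
  [[], [(7, -1, 1)], [], [(5, 1, 1)], [(2, -1, 1)], [], [(4, -1, 1)], []],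
  [[], [(6, 1, 1)], [(5, -1, 1)], [], [(3, -1, 1)], [], [], [(4, -1, 1)]],
  [[], [], [], [], [(0, 1, 1)], [(5, -1, 1)], [(6, -1, 1)], [(7, -1, 1)]],
  [[(5, -1, 1)], [(0, -1, 1)], [], [], [], [], [(3, 1, 1)], [(2, -1, 1)]],
  [[(6, -1, 1)], [], [(0, -1, 1)], [], [], [(3, -1, 1)], [], [(1, 1, 1)]],
  [[(7, -1, 1)], [], [], [(0, -1, 1)], [], [(2, 1, 1)], [(1, -1, 1)], []]]

def LI : List (List (Fin 3 × I8 × I8 × ℤ)) := [
  [(2, .inr 3, .inr 2, 1)],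
  [(2, .inr 3, .inr 1, -1)],
  [(2, .inr 3, .inr 0, 1)],
  [(2, .inr 3, .inl 0, -1)],
  [(2, .inr 3, .inl 1, -1)],
  [(2, .inr 3, .inl 2, -1)],
  [(2, .inl 2, .inr 1, 1)],
  [(2, .inl 2, .inr 0, -1)],
  [(2, .inr 0, .inr 2, -1)],
  [(2, .inr 1, .inr 2, -1)],
  [(2, .inl 1, .inr 0, -1)],
  [(2, .inr 0, .inr 1, -1)],
  [(2, .inr 1, .inr 0, -1)],
  [(2, .inr 1, .inl 0, 1)],
  [(2, .inr 2, .inr 1, -1)],
  [(2, .inr 2, .inr 0, -1)],
  [(2, .inr 2, .inl 0, 1)],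
  [(2, .inr 2, .inl 1, -1)],
  [(2, .inl 3, .inr 2, 1)],
  [(2, .inl 3, .inr 1, 1)],
  [(2, .inl 3, .inr 0, 1)],
  [(2, .inr 0, .inr 3, 1)],
  [(2, .inr 1, .inr 3, -1)],
  [(2, .inr 2, .inr 3, 1)],
  [(2, .inr 3, .inr 3, -1)],
  [(0, .inl 2, .inl 2, -1), (0, .inl 3, .inl 3, 1)],
  [(0, .inr 3, .inr 3, -1)],
  [(1, .inr 3, .inr 3, -1)]]

/-- The three tables. -/
def LPi (i : Fin 3) : List (List Col) := ![LP0, LP1, LP2] i

theorem LPi_len : ∀ i, (LPi i).length = 28 ∧ ∀ l ∈ LPi i, l.length ≤ 8 := by decide +kernel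

open Tri

variable (F : Type*) [Field F]

/-- The three representations of the Lie algebra. -/
def Φ (i : Fin 3) : (chevD4.Idx → F) →ₗ[F] (I8 → F) →ₗ[F] (I8 → F) := Bil (enc chevD4) e8 e8 (tab (LPi i)) F

theorem zorn_eq : (zorn F).μ = Bil e8 e8 e8 (tab LM) F := by
  refine LinearMap.ext₂ fun v w => funext fun a => ?_
  rw [Bil_apply]
  rcases a with a | a <;> fin_cases a <;>
    simp [zorn, zornMul, Mat2, tab, LM, e8, Fin.sum_univ_four, mulVec, dotProduct] <;> ring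

variable {F}

theorem rep_y (t u : F) (r : Rt) (i : Fin 3) (c : ℤ) (a b : ℕ) :
    Rep e8 t u (1 + Mat e8 (tab (LPi i) r) ((c : F) * t ^ a * u ^ b)) (appU (tab (LPi i) r) c a b) :=
  rep_appU e8_inj (tab_right (LPi_len i).2 r) c a b

theorem y_inv (r : Rt) (i : Fin 3) (t : F) : (1 + Mat e8 (tab (LPi i) r) t) * (1 + Mat e8 (tab (LPi i) r) (-t)) = 1 := by
  have h : ∀ (r : Rt) (i : Fin 3) (b : I8),
    eqv (appU (tab (LPi i) r) 1 1 0 (appU (tab (LPi i) r) (-1) 1 0 (e0 (e8 b)))) (e0 (e8 b)) = true := by decide +kernel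
  simpa using ((rep_y t 1 r i 1 1 0).mul (rep_y t 1 r i (-1) 1 0)).eq e8_inj Rep.one (h r i)

/-- Root elements on the three modules. -/
def y (r : Rt) (t : F) (i : Fin 3) : GL I8 F :=
  ⟨1 + Mat e8 (tab (LPi i) r) t, 1 + Mat e8 (tab (LPi i) r) (-t), y_inv r i t, by simpa using y_inv r i (-t)⟩

theorem rep_yt (t u : F) (r : Rt) (i : Fin 3) : Rep e8 t u (y r t i : GL I8 F) (appU (tab (LPi i) r) 1 1 0) := by
  simpa [y] using rep_y t u r i 1 1 0

theorem rep_yu (t u : F) (r : Rt) (i : Fin 3) : Rep e8 t u (y r u i : GL I8 F) (appU (tab (LPi i) r) 1 0 1) := by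
  simpa [y] using rep_y t u r i 1 0 1

theorem map_y {F' : Type*} [Field F'] (f : F →+* F') (r : Rt) (t : F) (i : Fin 3) :
    Matrix.GeneralLinearGroup.map f (y r t i) = y r (f t) i := by
  apply Units.ext
  change (1 + Mat e8 _ t).map f = 1 + Mat e8 _ (f t)
  rw [Matrix.map_add _ (map_add f), Mat_map, Matrix.map_one _ (map_zero f) (map_one f)]

variable (F) in
/-- Matching tuples. -/
def Γ3 : Subgroup (GL chevD4.Idx F × (Fin 3 → GL I8 F)) where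
  carrier := {p | ∀ i, Inv3 (Φ F i) p.1 (p.2 i) (p.2 i) ∧ Inv3 (zorn F).μ (p.2 (i + 1)) (p.2 (i + 2)) (p.2 i)}
  one_mem' _ := ⟨Inv3.one, Inv3.one⟩
  mul_mem' h h' i := ⟨(h i).1.mul (h' i).1, (h i).2.mul (h' i).2⟩
  inv_mem' h i := ⟨(h i).1.inv, (h i).2.inv⟩

theorem xy_mem (r : Rt) (t : F) : (K.x r t, y r t) ∈ Γ3 F := fun i => by
  have h1 : ∀ (r : Rt) (i : Fin 3) a b, eqv (vbil (tab (LPi i)) (appU (K.nil r) 1 1 0 (e0 (enc chevD4 a)))
      (appU (tab (LPi i) r) 1 1 0 (e0 (e8 b)))) (appU (tab (LPi i) r) 1 1 0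
      (vbil (tab (LPi i)) (e0 (enc chevD4 a)) (e0 (e8 b)))) = true := by decide +kernel
  have h2 : ∀ (r : Rt) (i : Fin 3) a b, eqv (vbil (tab LM) (appU (tab (LPi (i + 1)) r) 1 1 0 (e0 (e8 a)))
      (appU (tab (LPi (i + 2)) r) 1 1 0 (e0 (e8 b)))) (appU (tab (LPi i) r) 1 1 0
      (vbil (tab LM) (e0 (e8 a)) (e0 (e8 b)))) = true := by decide +kernel
  refine ⟨inv3_of_check (enc_inj _) e8_inj (fun a h => tab_left ((LPi_len i).1.trans_le (le_of_not_enc chevD4 h)))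
    (tab_right (LPi_len i).2) (rep_xt r t 1) (rep_yt t 1 r i) (rep_yt t 1 r i) (h1 r i), ?_⟩
  rw [zorn_eq]
  exact inv3_of_check e8_inj e8_inj (fun a h => tab_left (e8_le h)) (tab_right (by decide))
    (rep_yt t 1 r _) (rep_yt t 1 r _) (rep_yt t 1 r i) (h2 r i)

theorem eq_one_of_Γ3 {g : GL chevD4.Idx F} (h : (g, 1) ∈ Γ3 F) : g = 1 := by
  have h1 : ∀ a b : chevD4.Idx, ((LI.getD (enc _ a) []).map fun e =>
      e.2.2.2 * Mat2 e8 e8 (tab (LPi e.1) (enc _ b)) (1 : ℤ) e.2.1 e.2.2.1).sum = if a = b then 1 else 0 := by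
    decide +kernel
  have h2 : ∀ (l : chevD4.Idx → F) a, l a = ((LI.getD (enc _ a) []).map fun e =>
      (e.2.2.2 : F) * Φ F e.1 l (Pi.single e.2.2.1 1) e.2.1).sum := fun l a => by
    have h3 : ∀ L : List (Fin 3 × I8 × I8 × ℤ), (L.map fun e => (e.2.2.2 : F) * Φ F e.1 l (Pi.single e.2.2.1 1) e.2.1).sum =
        ∑ b, l b * ((L.map fun e => e.2.2.2 * Mat2 e8 e8 (tab (LPi e.1) (enc _ b)) (1 : ℤ) e.2.1 e.2.2.1).sum : ℤ) := by
      intro L
      induction L with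
      | nil => simp
      | cons e L ih =>
        rw [List.map_cons, List.sum_cons, ih]
        simp only [List.map_cons, List.sum_cons, Φ, Bil_apply, Int.cast_add, mul_add, Finset.sum_add_distrib,
          Finset.sum_apply, Finset.mul_sum, mulVec_single_one, Pi.smul_apply, col_apply, smul_eq_mul, Int.cast_mul,
          ← Mat2_cast, mul_left_comm]
    simp only [h3, h1]
    simp
  refine Units.ext (Matrix.ext_of_mulVec_single fun b => funext fun a => ?_)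
  rw [h2 (_ *ᵥ _), h2 (_ *ᵥ _)]
  congr 2
  funext e
  have := (h e.1).1 (Pi.single b 1) (Pi.single e.2.2.1 1)
  simp only [Pi.one_apply, Units.val_one, one_mulVec] at this ⊢
  rw [this]

theorem iso_of_Γ3 {p : GL chevD4.Idx F × (Fin 3 → GL I8 F)} (h : p ∈ Γ3 F) (i : Fin 3) (v : I8 → F) :
    qPlus 4 F (p.2 i *ᵥ v) = qPlus 4 F v := by
  obtain ⟨i, rfl⟩ : ∃ j, i = j + 2 := ⟨i + 1, by revert i; decide⟩
  have h1 := (h i).2 ((zorn F).μ v (((p.2 i)⁻¹ : GL I8 F) *ᵥ (zorn F).u)) v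
  have h2 := (h (i + 1)).2 v (((p.2 i)⁻¹ : GL I8 F) *ᵥ (zorn F).u)
  have h3 : ∀ i : Fin 3, i + 1 + 1 = i + 2 ∧ i + 1 + 2 = i := by decide
  rw [(h3 i).1, (h3 i).2] at h2
  rw [← h2, SymComp.left, SymComp.left, mulVec_smul, mulVec_mulVec, Units.mul_inv, one_mulVec] at h1
  simpa [zorn] using congrFun h1 (.inl 0)

variable {k : Type} [Field k] (φ : F →+* k) (σ : k ≃+* k)

/-- The twisted part. -/
def Λ : Subgroup (GL chevD4.Idx F × (Fin 3 → GL I8 F)) :=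
  (Γ3 k).comap ((Matrix.GeneralLinearGroup.map φ).prodMap ((Matrix.GeneralLinearGroup.map φ).compLeft _)) ⊓
    ⨅ i : Fin 3, ((Matrix.GeneralLinearGroup.map ((σ : k →+* k).comp φ)).comp ((Pi.evalMonoidHom _ i).comp (.snd _ _))).eqLocus
      ((Matrix.GeneralLinearGroup.map φ).comp ((Pi.evalMonoidHom _ (i + 1)).comp (.snd _ _)))

variable {φ σ}

theorem mem_Λ {p : GL chevD4.Idx F × (Fin 3 → GL I8 F)} : p ∈ Λ φ σ ↔
    (Matrix.GeneralLinearGroup.map φ p.1, fun i => Matrix.GeneralLinearGroup.map φ (p.2 i)) ∈ Γ3 k ∧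
    ∀ i, Matrix.GeneralLinearGroup.map ((σ : k →+* k).comp φ) (p.2 i) = Matrix.GeneralLinearGroup.map φ (p.2 (i + 1)) := by
  rw [Λ, Subgroup.mem_inf, Subgroup.mem_iInf]; rfl

theorem tab_congr {L L' : List (List Col)} {a a' : ℕ} (h : L.getD a [] = L'.getD a' []) : tab L a = tab L' a' :=
  funext fun b => by rw [tab, tab, h]

theorem mem_one {r : Rt} (h : ∀ i, (LPi i).getD r [] = (LPi (i + 1)).getD r []) {t : F} (ht : σ (φ t) = φ t) :
    K.x r t ∈ (Λ φ σ).map (.fst _ _) := by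
  refine ⟨(K.x r t, y r t), mem_Λ.mpr ⟨?_, fun i => ?_⟩, rfl⟩
  · simpa only [K.map_x, map_y] using xy_mem r (φ t)
  · simp only [map_y, RingHom.comp_apply, RingHom.coe_coe, ht]; simp only [y, tab_congr (h i)]

theorem mem_three {r s w : Rt} (h : ∀ i, (LPi i).getD r [] = (LPi (i + 1)).getD s [] ∧
    (LPi i).getD s [] = (LPi (i + 1)).getD w [] ∧ (LPi i).getD w [] = (LPi (i + 1)).getD r [] ∧ ∀ x ∈ [s, w], ∀ b,
      eqv (appU (tab (LPi i) r) 1 1 0 (appU (tab (LPi i) x) 1 0 1 (e0 (e8 b))))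
        (appU (tab (LPi i) x) 1 0 1 (appU (tab (LPi i) r) 1 1 0 (e0 (e8 b)))) = true)
    {a b c : F} (h1 : σ (φ a) = φ b) (h2 : σ (φ b) = φ c) (h3 : σ (φ c) = φ a) :
    K.x r a * (K.x s b * K.x w c) ∈ (Λ φ σ).map (.fst _ _) := by
  refine ⟨(K.x r a, y r a) * ((K.x s b, y s b) * (K.x w c, y w c)), mem_Λ.mpr ⟨?_, fun i => ?_⟩, rfl⟩
  · have := mul_mem (xy_mem r (φ a)) (mul_mem (xy_mem s (φ b)) (xy_mem w (φ c)))
    simp only [Prod.mk_mul_mk, Pi.mul_def, map_mul, K.map_x, map_y] at this ⊢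
    exact this
  · have cm : ∀ x ∈ [s, w], ∀ t u : k, Commute (y r t (i + 1)) (y x u (i + 1)) := fun x hx t u =>
      Units.ext (((rep_yt t u _ _).mul (rep_yu t u _ _)).eq e8_inj ((rep_yu t u _ _).mul (rep_yt t u _ _))
        ((h _).2.2.2 x hx))
    simp only [Prod.snd_mul, Pi.mul_apply, map_mul, map_y, RingHom.comp_apply, RingHom.coe_coe, h1, h2, h3]
    rw [((cm s (by simp) _ _).mul_right (cm w (by simp) _ _)).eq, mul_assoc]
    simp only [y, tab_congr (h i).1, tab_congr (h i).2.1, tab_congr (h i).2.2.1]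

theorem bound [IsAlgClosed k] [Finite F] (p : ℕ) [Fact p.Prime] [CharP k p] {X : Type*} [Group X]
    {f : X →* GL chevD4.Idx F} (hf : Function.Injective f) (hD : ∀ x, f x ∈ (Λ φ σ).map (.fst _ _)) {r : ℕ}
    {π : X →* alternatingGroup (Fin r)} (hπ : Function.Surjective π) : r ≤ 6 + (if p = 5 then 1 else 0) := by
  haveI := Finite.of_injective f hf
  let H := (Λ φ σ).comap (f.prodMap (.id _))
  let ρ : Fin 3 → H →* End k (I8 → k) := fun i => (Matrix.toLinAlgEquiv' : Matrix I8 I8 k ≃ₐ[k] _).toMonoidHom.comp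
    ((Units.coeHom _).comp ((Matrix.GeneralLinearGroup.map φ).comp ((Pi.evalMonoidHom _ i).comp
      ((MonoidHom.snd _ _).comp H.subtype))))
  have hρ : ∀ i h v, ρ i h v = Matrix.GeneralLinearGroup.map φ (h.1.2 i) *ᵥ v := fun _ _ _ => rfl
  have hi := Cfsg.Agent.Lib.GL.H90.gl_map_injective (ι := I8) φ φ.injective
  have tw : ∀ i h v, ρ (i + 1) h (σ ∘ v) = σ ∘ ρ i h v := fun i h v => by
    rw [hρ, hρ, show Matrix.GeneralLinearGroup.map φ (h.1.2 (i + 1)) = _ from ((mem_Λ.mp h.2).2 i).symm]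
    funext a
    simp [mulVec, dotProduct]
  refine TRep.bound (C := zorn k) (ρ := ρ 0) (ρ₁ := ρ 1) (ρ₂ := ρ 2) ⟨by simp, fun h => iso_of_Γ3 (mem_Λ.mp h.2).1 0,
    fun h => iso_of_Γ3 (mem_Λ.mp h.2).1 1, fun h => iso_of_Γ3 (mem_Λ.mp h.2).1 2,
    fun h a b => (((mem_Λ.mp h.2).1 0).2 a b).symm, (injective_iff_map_eq_one _).mpr fun h h1 => ?_,
    σ, AddEquiv.piCongrRight fun _ => σ.toAddEquiv, fun c v => funext fun a => map_mul σ _ _, tw 0, tw 1⟩ p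
    (π := π.comp ((MonoidHom.fst _ _).comp H.subtype)) fun a => ?_
  · have h0 : ∀ i, h.1.2 i = 1 → h.1.2 (i + 1) = 1 := fun i h2 => hi (by
      have := (mem_Λ.mp h.2).2 i
      simp only [MonoidHom.coe_prodMap, Prod.map_snd, MonoidHom.id_apply] at this
      rw [← this, h2, map_one, map_one])
    have h2 : h.1.2 0 = 1 := hi (Units.ext (by
      rw [map_one]; exact (Matrix.toLinAlgEquiv' : Matrix I8 I8 k ≃ₐ[k] _).map_eq_one_iff.mp h1))
    have h3 : h.1.2 = 1 := funext fun i => by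
      fin_cases i
      exacts [h2, h0 0 h2, h0 1 (h0 0 h2)]
    have h4 := (mem_Λ.mp h.2).1
    simp only [MonoidHom.coe_prodMap, Prod.map_snd, MonoidHom.id_apply, h3, Pi.one_apply, map_one, Prod.map_fst] at h4
    refine Subtype.ext (Prod.ext (hf (Cfsg.Agent.Lib.GL.H90.gl_map_injective φ φ.injective ?_)) h3)
    simpa using eq_one_of_Γ3 h4
  · obtain ⟨x, rfl⟩ := hπ a
    obtain ⟨q, hq, e⟩ := hD x
    exact ⟨⟨(x, q.2), (show q = (f x, q.2) from Prod.ext e rfl) ▸ hq⟩, rfl⟩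

end D4Tri

end
end Cfsg.Agent.Lib.Forms
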