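import Cfsg.Agent.Lib.Forms.AltRepS
import Cfsg.Agent.Lib.Forms.OrthTri3

/-! Eigenspaces of elements of odd prime order in triality-twisted groups. -/

set_option autoImplicit false

namespace Cfsg.Agent.Lib.Forms

open Module QuadraticMap

variable {k V : Type*} [Field k] [AddCommGroup V] [Module k V] [FiniteDimensional k V] {Q : QuadraticForm k V}
  {H : Type*} [Group H] {ρ : H →* End k V}

theorem finrank_le_of_pairing {U W : Submodule k V} (h : ∀ u ∈ U, (∀ w ∈ W, polar Q u w = 0) → u = 0) :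
    finrank k U ≤ finrank k W := by
  rw [← Subspace.dual_finrank_eq (V := W)]
  refine LinearMap.finrank_le_finrank_of_injective (f := (polarBilin Q).domRestrict₁₂ U W)
    ((injective_iff_map_eq_zero _).mpr fun u hu => Subtype.ext (h u u.2 fun w hw => LinearMap.congr_fun hu ⟨w, hw⟩))

theorem two_mul_le_of_pairing {D E : Submodule k V} (hD : D ≤ E) (h0 : ∀ u ∈ D, ∀ v ∈ D, polar Q u v = 0)
    (h : ∀ u ∈ E, (∀ w ∈ E, polar Q u w = 0) → u = 0) : 2 * finrank k D ≤ finrank k E := by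
  obtain ⟨W, h1, h2⟩ := IsModularLattice.exists_disjoint_and_sup_eq hD
  have h3 := finrank_le_of_pairing (Q := Q) (U := D) (W := W) fun u hu h3 => h u (hD hu) fun w hw => by
    obtain ⟨a, ha, b, hb, rfl⟩ := Submodule.mem_sup.mp (h2.ge hw)
    rw [polar_add_right, h3 b hb, h0 _ hu _ ha, add_zero]
  have := Submodule.finrank_sup_add_finrank_inf_eq D W
  rw [h2, h1.eq_bot, finrank_bot] at this
  omega

theorem sum_finrank_le_of_le {Λ : Type*} [Fintype Λ] {p : Λ → Submodule k V} (h : iSupIndep p) {W : Submodule k V}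
    (hW : ∀ a, p a ≤ W) : ∑ a, finrank k (p a) ≤ finrank k W := by
  classical
  rw [← finrank_directSum, ← LinearMap.finrank_range_of_inj (f := DirectSum.coeLinearMap p) h.dfinsupp_lsum_injective,
    DirectSum.range_coeLinearMap]
  exact Submodule.finrank_mono (iSup_le hW)

omit [FiniteDimensional k V] in
theorem polar_eq_zero_of_eigen {f : End k V} (hf : ∀ v, Q (f v) = Q v) {u v : V} {a b : k} (hu : f u = a • u)
    (hv : f v = b • v) (hab : a * b ≠ 1) : polar Q u v = 0 := by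
  have : polar Q (f u) (f v) = polar Q u v := by simp only [polar, ← map_add, hf]
  rw [hu, hv, polar_smul_left, polar_smul_right, smul_smul] at this
  exact by_contra fun h => hab ((mul_eq_right₀ h).mp this)

omit [FiniteDimensional k V] in
theorem Q_eq_zero_of_eigen {f : End k V} (hf : ∀ v, Q (f v) = Q v) {u : V} {a : k} (hu : f u = a • u)
    (ha : a * a ≠ 1) : Q u = 0 := by
  have := hf u
  rw [hu, Q_smul] at this
  exact by_contra fun h => ha ((mul_eq_right₀ h).mp this)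

theorem hopf [IsAlgClosed k] (f : V →ₗ[k] V →ₗ[k] V) {A B W : Submodule k V} (h : ∀ a ∈ A, ∀ b ∈ B, f a b ∈ W)
    (hA : 2 ≤ finrank k A) (hB : 1 ≤ finrank k B) (hW : finrank k W ≤ finrank k B) :
    ∃ a ∈ A, ∃ b ∈ B, a ≠ 0 ∧ b ≠ 0 ∧ f a b = 0 := by
  by_contra! h1
  haveI := Module.nontrivial_of_finrank_pos (R := k) (M := A) (by omega)
  haveI := Module.nontrivial_of_finrank_pos (R := k) (M := B) hB
  obtain ⟨x, hx⟩ := exists_ne (0 : A)
  obtain ⟨y, hy⟩ := exists_linearIndependent_pair_of_one_lt_finrank hA hx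
  have h2 : Function.Injective ((f x).restrict (h x x.2)) := (injective_iff_map_eq_zero _).mpr fun b hb =>
    by_contra fun h2 => h1 x x.2 b b.2 (by simpa using hx) (by simpa using h2) (congrArg Subtype.val hb)
  let e := LinearEquiv.ofBijective _ ⟨h2, (LinearMap.injective_iff_surjective_of_finrank_eq_finrank
    (le_antisymm (LinearMap.finrank_le_finrank_of_injective h2) hW)).mp h2⟩
  obtain ⟨c, hc⟩ := End.exists_eigenvalue (e.symm.toLinearMap ∘ₗ (f y).restrict (h y y.2))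
  obtain ⟨b, hb, hb'⟩ := hc.exists_hasEigenvector
  have h3 : f y b = f x (c • b : B) := congrArg Subtype.val (e.symm_apply_eq.mp (End.mem_eigenspace_iff.mp hb))
  refine h1 _ ((-c) • x + (1 : k) • y).2 b b.2 (fun h4 => ?_) (by simpa using hb') (by simp [h3])
  exact one_ne_zero (LinearIndependent.pair_iff.mp hy _ _ (Subtype.ext h4)).2

variable {ι : Type*} {l : ℕ} [NeZero l] {ζ : k} (hζ : IsPrimitiveRoot ζ l) {d : ι → H}

omit [FiniteDimensional k V] [NeZero l] in
theorem mem_EJ {a : ι → ZMod l} {v : V} : v ∈ EJ ρ d ζ a ↔ ∀ i, ρ (d i) v = ζ ^ (a i).val • v := mem_JE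

omit [FiniteDimensional k V] [NeZero l] in
theorem EJ_map (g : H) {a : ι → ZMod l} {v : V} (hv : v ∈ EJ ρ d ζ a) :
    ρ g v ∈ EJ ρ (fun i => g * d i * g⁻¹) ζ a := mem_EJ.mpr fun i => by
  rw [← rho_mul, inv_mul_cancel_right, rho_mul, mem_EJ.mp hv, map_smul]

omit [NeZero l] in
theorem EJ_conj' (g : H) (a : ι → ZMod l) : finrank k (EJ ρ d ζ a) ≤ finrank k (EJ ρ (fun i => g * d i * g⁻¹) ζ a) := by
  refine LinearMap.finrank_le_finrank_of_injective (f := (ρ g).restrict fun v hv => EJ_map g hv) fun v w e =>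
    Subtype.ext ?_
  have : ρ g⁻¹ (ρ g v) = ρ g⁻¹ (ρ g w) := congrArg (fun x => ρ g⁻¹ x.1) e
  simpa only [← rho_mul, inv_mul_cancel, map_one, End.one_apply] using this

include hζ

theorem pow_val_add (a b : ZMod l) : ζ ^ (a + b).val = ζ ^ a.val * ζ ^ b.val := by
  rw [ZMod.val_add, ← pow_eq_pow_mod _ hζ.pow_eq_one, pow_add]

theorem pow_val_eq_one {a : ZMod l} : ζ ^ a.val = 1 ↔ a = 0 := by
  rw [hζ.pow_eq_one_iff_dvd, ← ZMod.natCast_eq_zero_iff, ZMod.natCast_zmod_val]

omit [FiniteDimensional k V] in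
theorem iSupIndep_EJ : iSupIndep (EJ ρ d ζ : (ι → ZMod l) → _) :=
  (iSupIndep_JE _).comp fun _ _ e => funext fun i => ZMod.val_injective l
    (hζ.pow_inj (ZMod.val_lt _) (ZMod.val_lt _) (congrFun e i))

variable [IsAlgClosed k] (hc : ∀ i j, Commute (d i) (d j)) (h1 : ∀ i, d i ^ l = 1)
include hc h1

theorem EJ_nondeg (hQ : Nondeg Q) (hρ : ∀ h v, Q (ρ h v) = Q v) {a : ι → ZMod l} {v : V} (hv : v ∈ EJ ρ d ζ a)
    (h : ∀ w ∈ EJ ρ d ζ (-a), polar Q v w = 0) : v = 0 := by
  have := EJ_zero hζ hc h1 (T := (polarBilin Q v).smulRight v) (ρ := ρ) fun b w hw => by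
    by_cases hb : b = -a
    · simp [h w (hb ▸ hw)]
    obtain ⟨i, hi⟩ := Function.ne_iff.mp hb
    simp [polar_eq_zero_of_eigen (hρ _) (mem_EJ.mp hv i) (mem_EJ.mp hw i) (by
      rw [← pow_val_add hζ, Ne, pow_val_eq_one hζ]; exact fun e => hi (eq_neg_of_add_eq_zero_right e))]
  by_contra h2
  obtain ⟨w, hw⟩ := hQ.exists_polar_ne_zero h2
  simpa [hw, h2] using LinearMap.congr_fun this w

theorem EJ_dual (hQ : Nondeg Q) (hρ : ∀ h v, Q (ρ h v) = Q v) (a : ι → ZMod l) :
    finrank k (EJ ρ d ζ a) = finrank k (EJ ρ d ζ (-a)) := by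
  have := fun a => finrank_le_of_pairing fun v hv => EJ_nondeg hζ hc h1 hQ hρ (a := a) (v := v) hv
  exact le_antisymm (this a) (by have := this (-a); rwa [neg_neg] at this)

variable [Fintype ι] [DecidableEq ι]

theorem EJ_sum : ∑ a : ι → ZMod l, finrank k (EJ ρ d ζ a) = finrank k V := by
  classical
  have h2 : ⨆ a : ι → ZMod l, EJ ρ d ζ a = ⊤ := by
    by_contra h2
    obtain ⟨f, hf, h3⟩ := Submodule.exists_le_ker_of_lt_top _ (lt_top_iff_ne_top.mpr h2)
    obtain ⟨w, hw⟩ := DFunLike.ne_iff.mp hf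
    have := EJ_zero hζ hc h1 (ρ := ρ) (T := f.smulRight w) fun a v hv => by
      simp [LinearMap.mem_ker.mp (h3 (Submodule.mem_iSup_of_mem a hv))]
    have h4 := congrArg f (LinearMap.congr_fun this w)
    simp_all
  rw [← finrank_directSum, ← LinearMap.finrank_range_of_inj (f := DirectSum.coeLinearMap _)
    (iSupIndep_EJ hζ).dfinsupp_lsum_injective, DirectSum.range_coeLinearMap, h2, finrank_top]

theorem EJ_refine {t : H} (φ : (ι → ZMod l) → ZMod l) (h : ∀ a, EJ ρ d ζ a ≤ EJ ρ (fun _ : Unit => t) ζ fun _ => φ a)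
    (c : ZMod l) : finrank k (EJ ρ (fun _ : Unit => t) ζ fun _ => c) =
      ∑ a with φ a = c, finrank k (EJ ρ d ζ a) := by
  have h2 : ∀ c ∈ Finset.univ, ∑ a with φ a = c, finrank k (EJ ρ d ζ a) ≤
      finrank k (EJ ρ (fun _ : Unit => t) ζ fun _ => c) := fun c _ => by
    rw [Finset.sum_subtype (p := fun a => φ a = c) _ (by simp)]
    exact sum_finrank_le_of_le ((iSupIndep_EJ hζ).comp Subtype.val_injective) fun a => (h a.1).trans_eq (by rw [a.2])
  refine ((Finset.sum_eq_sum_iff_of_le h2).mp (le_antisymm (Finset.sum_le_sum h2) ?_) c (Finset.mem_univ _)).symm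
  rw [Finset.sum_fiberwise, EJ_sum hζ hc h1]
  exact sum_finrank_le_of_iSupIndep ((iSupIndep_EJ hζ).comp (f := fun (c : ZMod l) (_ : Unit) => c)
    fun _ _ e => congrFun e ())

end Cfsg.Agent.Lib.Forms
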