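import Cfsg.Agent.Lib.Forms.TriEig
import Cfsg.Agent.Lib.Core.Syl

/-! Triality-twisted representations: elements of order 3 and 5, normal 3-subgroups. -/

set_option autoImplicit false

namespace Cfsg.Agent.Lib.Forms

open Module QuadraticMap Subgroup Cfsg.Agent.Lib.Core
open scoped commutatorElement

variable {k V : Type*} [Field k] [AddCommGroup V] [Module k V] [FiniteDimensional k V] {Q : QuadraticForm k V}
  {H : Type*} [Group H] {ρ ρ₁ ρ₂ : H →* End k V}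

/-- Three representations forming related triples, permuted by a semilinear twist. -/
structure TRep (C : SymComp Q) (ρ ρ₁ ρ₂ : H →* End k V) : Prop where
  dim : finrank k V = 8
  iso : ∀ h v, Q (ρ h v) = Q v
  iso₁ : ∀ h v, Q (ρ₁ h v) = Q v
  iso₂ : ∀ h v, Q (ρ₂ h v) = Q v
  rel : ∀ h a b, ρ h (C.μ a b) = C.μ (ρ₁ h a) (ρ₂ h b)
  inj : Function.Injective ρ
  tw : ∃ (σ : k ≃+* k) (S : V ≃+ V), (∀ c v, S (c • v) = σ c • S v) ∧ (∀ h v, ρ₁ h (S v) = S (ρ h v)) ∧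
    ∀ h v, ρ₂ h (S v) = S (ρ₁ h v)

/-- The eigenspace for `ζ ^ a`. -/
abbrev En (ρ : H →* End k V) (x : H) (ζ : k) {l : ℕ} (a : ZMod l) : Submodule k V :=
  EJ ρ (fun _ : Unit => x) ζ fun _ => a

variable {l : ℕ} {ζ : k} {x : H}

omit [FiniteDimensional k V] in
theorem mem_En [NeZero l] {a : ZMod l} {v : V} : v ∈ En ρ x ζ a ↔ ρ x v = ζ ^ a.val • v :=
  mem_EJ.trans ⟨fun h => h (), fun h _ => h⟩

theorem En_sum [NeZero l] [IsAlgClosed k] (hζ : IsPrimitiveRoot ζ l) (h1 : x ^ l = 1) :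
    ∑ a : ZMod l, finrank k (En ρ x ζ a) = finrank k V := by
  rw [← EJ_sum hζ (d := fun _ : Unit => x) (ρ := ρ) (fun _ _ => Commute.refl _) fun _ => h1]
  exact Fintype.sum_equiv (Equiv.funUnique Unit _).symm _ _ fun _ => rfl

theorem En_twist [Fact l.Prime] (hζ : IsPrimitiveRoot ζ l) {σ : k ≃+* k} {S : V ≃+ V}
    (h : ∀ c v, S (c • v) = σ c • S v) : ∃ s : ZMod l, s ≠ 0 ∧ ∀ ρ ρ₁ : H →* End k V,
      (∀ h v, ρ₁ h (S v) = S (ρ h v)) → ∀ a, finrank k (En ρ₁ x ζ (s * a)) = finrank k (En ρ x ζ a) := by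
  obtain ⟨s, hs, e⟩ := hζ.eq_pow_of_pow_eq_one (ξ := σ ζ) (by rw [← map_pow, hζ.pow_eq_one, map_one])
  refine ⟨s, fun h0 => ?_, fun ρ ρ₁ h1 a => ?_⟩
  · rw [← pow_val_eq_one hζ, ZMod.val_cast_of_lt hs, e, map_eq_one_iff _ σ.injective] at h0
    exact hζ.ne_one (Fact.out : l.Prime).one_lt h0
  have h2 : ∀ v, S v ∈ En ρ₁ x ζ ((s : ZMod l) * a) ↔ v ∈ En ρ x ζ a := fun v => by
    rw [mem_En, mem_En, h1, ZMod.val_mul, ZMod.val_cast_of_lt hs, ← pow_eq_pow_mod _ hζ.pow_eq_one, pow_mul, e,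
      ← map_pow, ← h, S.apply_eq_iff_eq]
  exact (congrArg Cardinal.toNat (rank_eq_of_equiv_equiv σ ⟨S.toEquiv.subtypeEquiv fun v => (h2 v).symm,
    fun u v => Subtype.ext (map_add S u.1 v.1)⟩ σ.bijective fun c v => Subtype.ext (h c v.1))).symm

variable [IsAlgClosed k] {C : SymComp Q}

theorem TRep.eig [Fact l.Prime] (h : TRep C ρ ρ₁ ρ₂) (hζ : IsPrimitiveRoot ζ l) (h2 : (2 : ZMod l) ≠ 0)
    (h1 : x ^ l = 1) (hx : x ≠ 1) {m : ℕ} (hm : ∀ a : ZMod l, a ≠ 0 → finrank k (En ρ x ζ a) = m) :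
    finrank k (En ρ x ζ (0 : ZMod l)) + (l - 1) * m = 8 ∧ finrank k (En ρ x ζ (0 : ZMod l)) ≤ 2 * m ∧
      (2 ≤ m → finrank k (En ρ x ζ (0 : ZMod l)) ≠ 0) := by
  obtain ⟨σ, S, h3, h4, h5⟩ := h.tw
  obtain ⟨s, hs, h6⟩ := En_twist (x := x) hζ h3
  have h7 : ∀ ρ ρ₁ : H →* End k V, (∀ h v, ρ₁ h (S v) = S (ρ h v)) → (∀ a : ZMod l, a ≠ 0 →
      finrank k (En ρ x ζ a) = m) → ∀ a : ZMod l, a ≠ 0 → finrank k (En ρ₁ x ζ a) = m := fun ρ ρ₁ h hm a ha => by
    rw [← mul_inv_cancel_left₀ hs a, h6 ρ ρ₁ h, hm _ (mul_ne_zero (inv_ne_zero hs) ha)]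
  have m1 := h7 _ _ h4 hm
  have m2 := h7 _ _ h5 m1
  have e2 : finrank k (En ρ₂ x ζ (0 : ZMod l)) = finrank k (En ρ x ζ (0 : ZMod l)) := by
    rw [← h6 _ _ h4, ← h6 _ _ h5, mul_zero, mul_zero]
  have hμ : ∀ a b : ZMod l, ∀ u ∈ En ρ₁ x ζ a, ∀ v ∈ En ρ₂ x ζ b, C.μ u v ∈ En ρ x ζ (a + b) := fun a b u hu v hv => by
    rw [mem_En, h.rel, mem_En.mp hu, mem_En.mp hv, map_smul, map_smul, LinearMap.smul_apply, smul_smul, pow_val_add hζ,
      mul_comm]
  have hs := En_sum (ρ := ρ) hζ h1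
  rw [← Finset.add_sum_erase _ _ (Finset.mem_univ 0), Finset.sum_congr rfl fun a ha => hm a (Finset.ne_of_mem_erase ha),
    Finset.sum_const, Finset.card_erase_of_mem (Finset.mem_univ _), Finset.card_univ, ZMod.card, h.dim] at hs
  have nd := fun (ρ : H →* End k V) hρ (a : ZMod l) v hv (h : ∀ w ∈ En ρ x ζ (-a), polar Q v w = 0) => EJ_nondeg hζ
    (ρ := ρ) (fun _ _ => Commute.refl _) (fun _ : Unit => h1) C.nondeg hρ (a := fun _ => a) (v := v) hv h
  refine ⟨hs, ?_, fun h8 h9 => ?_⟩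
  · have h8 : 1 ≤ m := by
      by_contra! h8
      rw [Nat.lt_one_iff.mp h8, smul_zero, add_zero, ← h.dim] at hs
      refine hx (h.inj (LinearMap.ext fun v => ?_))
      simpa using mem_En.mp ((Submodule.eq_top_of_finrank_eq hs).ge (Submodule.mem_top (x := v)))
    obtain ⟨u, hu, hu'⟩ := (Submodule.ne_bot_iff _).mp (Submodule.one_le_finrank_iff.mp (h8.trans (m1 1 one_ne_zero).ge))
    let f := (C.μ u).restrict (hμ 1 0 u hu)
    have h9 := f.finrank_range_add_finrank_ker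
    have h10 := Submodule.finrank_le (LinearMap.range f)
    rw [hm _ (by simp)] at h10
    have h11 := two_mul_le_of_pairing (Q := Q) (Submodule.map_subtype_le _ (LinearMap.ker f)) (by
      rintro _ ⟨v, hv, rfl⟩ _ ⟨w, hw, rfl⟩
      have := C.right₂ v w u
      rw [show C.μ u v = 0 from congrArg Subtype.val hv, show C.μ u w = 0 from congrArg Subtype.val hw, map_zero,
        map_zero, sub_zero, eq_comm, smul_eq_zero] at this
      exact this.resolve_right hu') fun v hv h12 => nd ρ₂ h.iso₂ 0 v hv (by rwa [neg_zero])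
    rw [Submodule.finrank_map_subtype_eq] at h11
    omega
  · obtain ⟨a, ha, b, hb, ha', hb', h10⟩ := hopf C.μ (hμ 1 1) (by rw [m1 1 one_ne_zero]; exact h8)
      (by rw [m2 1 one_ne_zero]; omega) (by rw [m2 1 one_ne_zero, hm _ (by rwa [one_add_one_eq_two])])
    refine ha' (nd ρ₁ h.iso₁ 1 a ha fun w hw => ?_)
    have h11 := hμ (-1) 1 w hw b hb
    rw [neg_add_cancel, Submodule.finrank_eq_zero.mp h9, Submodule.mem_bot] at h11
    have := C.left₂ a w b
    rw [h10, h11, map_zero, LinearMap.zero_apply, LinearMap.zero_apply, sub_zero, eq_comm, smul_eq_zero] at this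
    exact this.resolve_right hb'

theorem factFive : Fact (Nat.Prime 5) := ⟨Nat.prime_five⟩

attribute [local instance] factFive in
theorem TRep.five (h : TRep C ρ ρ₁ ρ₂) (h5 : ((5 : ℕ) : k) ≠ 0) {g : H} (h1 : x ^ 5 = 1) (hg : g * x * g⁻¹ = x ^ 2) :
    x = 1 := by
  by_contra hx
  obtain ⟨ζ, hζ⟩ := exists_prim 5 h5
  have h2 := fun a => EJ_conj hζ (ρ := ρ) (d := fun _ : Unit => x) id (fun _ => 2) (fun _ => hg) fun _ => a
  have h3 := h.eig hζ (by decide) h1 hx (m := finrank k (En ρ x ζ (1 : ZMod 5))) fun a ha => by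
    have a1 : finrank k (En ρ x ζ (1 : ZMod 5)) ≤ finrank k (En ρ x ζ (2 : ZMod 5)) := h2 1
    have a2 : finrank k (En ρ x ζ (2 : ZMod 5)) ≤ finrank k (En ρ x ζ (4 : ZMod 5)) := h2 2
    have a3 : finrank k (En ρ x ζ (4 : ZMod 5)) ≤ finrank k (En ρ x ζ (3 : ZMod 5)) := h2 4
    have a4 : finrank k (En ρ x ζ (3 : ZMod 5)) ≤ finrank k (En ρ x ζ (1 : ZMod 5)) := h2 3
    obtain rfl | rfl | rfl | rfl : a = 1 ∨ a = 2 ∨ a = 3 ∨ a = 4 := by revert a; decide
    all_goals omega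
  omega

theorem TRep.three (h : TRep C ρ ρ₁ ρ₂) (hζ : IsPrimitiveRoot ζ 3) (h1 : x ^ 3 = 1) (hx : x ≠ 1) :
    finrank k (En ρ x ζ (0 : ZMod 3)) = 2 ∨ finrank k (En ρ x ζ (0 : ZMod 3)) = 4 := by
  have h3 := h.eig hζ (by decide) h1 hx (m := finrank k (En ρ x ζ (1 : ZMod 3))) fun a ha => by
    obtain rfl | rfl : a = 1 ∨ a = -1 := by revert a; decide
    exacts [rfl, (EJ_dual hζ (fun _ _ => Commute.refl _) (fun _ => h1) C.nondeg h.iso _).symm]
  omega

/-- `x` is an `l`-element. -/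
def PE (l : ℕ) (x : H) : Prop := ∃ n, x ^ l ^ n = 1

theorem PE.isPGroup (h : PE l x) : IsPGroup l (zpowers x) := by
  rintro ⟨_, i, rfl⟩
  obtain ⟨n, hn⟩ := h
  exact ⟨n, Subtype.ext (by
    change (x ^ i) ^ l ^ n = 1
    rw [← zpow_natCast, ← zpow_mul, mul_comm i, zpow_mul, zpow_natCast, hn, one_zpow])⟩

theorem PE.of_mem {P : Subgroup H} (h : IsPGroup l P) (hx : x ∈ P) : PE l x :=
  (h ⟨x, hx⟩).imp fun _ h => congrArg Subtype.val h

theorem PE.conj (h : PE l x) (g : H) : PE l (g * x * g⁻¹) := h.imp fun n hn => by simp [hn]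

theorem exists_eigen_ne_one (inj : Function.Injective ρ) (hl : (l : k) ≠ 0) (h : PE l x) (hx : x ≠ 1) :
    ∃ c : k, c ≠ 1 ∧ (∃ n, c ^ l ^ n = 1) ∧ (ρ x).eigenspace c ≠ ⊥ := by
  obtain ⟨n, hn⟩ := h
  by_contra! h1
  refine hx (inj ((sub_eq_zero.mp (eq_zero_of_JE (f := fun _ : Unit => ρ x) (fun _ _ => Commute.refl _) (l := l ^ n)
    (by simpa using fun h => (hl h).elim) (fun _ => by rw [← map_pow, hn, map_one]) fun χ v hv => ?_)).trans
    (map_one ρ).symm))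
  have h2 := mem_JE.mp hv ()
  by_cases h3 : χ () = 1; · simp [h2, h3]
  by_cases hv0 : v = 0; · simp [hv0]
  have := rho_pow_of_eigen h2 (l ^ n)
  rw [hn, map_one] at this
  have h4 := h1 _ h3 ⟨n, smul_left_injective k hv0 (this.symm.trans (one_smul k v).symm)⟩
  exact (hv0 ((Submodule.eq_bot_iff _).mp h4 v (End.mem_eigenspace_iff.mpr h2))).elim

omit [IsAlgClosed k] in
theorem mul_self_ne_one {c : k} (hl : Odd l) (h : c ≠ 1) {n : ℕ} (hn : c ^ l ^ n = 1) : c * c ≠ 1 := fun e => by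
  obtain ⟨j, hj⟩ := hl.pow (n := n)
  rw [hj, pow_succ, pow_mul, pow_two, e, one_pow, one_mul] at hn
  exact h hn

theorem comm_of_dim [Finite H] [hp : Fact l.Prime] (hQ : Nondeg Q) (iso : ∀ h v, Q (ρ h v) = Q v)
    (inj : Function.Injective ρ) (hl : (l : k) ≠ 0) (hl' : Odd l) (hV : finrank k V < 2 * l) {P : Subgroup H}
    (hP : IsPGroup l P) : ∀ x y : P, Commute x y := by
  by_contra! h1
  obtain ⟨x₀, y₀, h1⟩ := h1
  haveI : Nontrivial (P ⧸ center P) := QuotientGroup.nontrivial_iff.mpr fun e =>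
    h1 (mem_center_iff.mp (e.ge (mem_top y₀)) x₀)
  haveI := (hP.to_quotient (center P)).center_nontrivial
  obtain ⟨u, hu⟩ := exists_prime_orderOf_dvd_card' (G := center (P ⧸ center P)) l (by
    obtain ⟨n, hn, e⟩ := ((hP.to_quotient (center P)).to_subgroup (center _)).nontrivial_iff_card.mp ‹_›
    exact e ▸ dvd_pow_self l hn.ne')
  obtain ⟨⟨x⟩, hx⟩ := u
  have h2 : x ∉ center P := fun h => hp.out.ne_one (by
    rw [← hu, orderOf_eq_one_iff]; exact Subtype.ext ((QuotientGroup.eq_one_iff x).mpr h))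
  have h3 : x ^ l ∈ center P := (QuotientGroup.eq_one_iff _).mp (congrArg Subtype.val (hu ▸ pow_orderOf_eq_one _ :
    (⟨_, hx⟩ : center (P ⧸ center P)) ^ l = 1))
  obtain ⟨y, hy⟩ := not_forall.mp (mt mem_center_iff.mpr h2)
  have h4 : ⁅y, x⁆ ∈ center P := (QuotientGroup.eq_one_iff _).mp
    (commutatorElement_eq_one_iff_mul_comm.mpr (mem_center_iff.mp hx (y : P ⧸ center P)))
  have h5 : y * x * y⁻¹ = ⁅y, x⁆ * x := by simp [commutatorElement_def]
  have h6 : ⁅y, x⁆ ≠ 1 := mt commutatorElement_eq_one_iff_mul_comm.mp hy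
  generalize ⁅y, x⁆ = z at *
  have h7 : z ^ l = 1 := by
    have := congrArg (· ^ l) h5
    simp only [conj_pow, mem_center_iff.mp h3 y, mul_inv_cancel_right] at this
    rwa [Commute.mul_pow (mem_center_iff.mp h4 x).symm, eq_comm, mul_eq_right] at this
  obtain ⟨c, h8, ⟨n, hn⟩, h9⟩ := exists_eigen_ne_one (ρ := ρ.comp P.subtype) (inj.comp Subtype.val_injective) hl
    ⟨1, by rw [pow_one, h7]⟩ h6
  set U := (ρ.comp P.subtype z).eigenspace c
  have h10 : ∀ g : P, ∀ v ∈ U, ρ.comp P.subtype g v ∈ U := fun g v hv => End.mem_eigenspace_iff.mpr (by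
    rw [← rho_mul, ← mem_center_iff.mp h4, rho_mul, End.mem_eigenspace_iff.mp hv, map_smul])
  have h11 := hQ.two_mul_finrank_le_of_ts (U := U) fun u hu =>
    Q_eq_zero_of_eigen (iso z) (End.mem_eigenspace_iff.mp hu) (mul_self_ne_one hl' h8 hn)
  let δ : P →* k := LinearMap.det.comp (Representation.subrepresentation (ρ.comp P.subtype) U h10)
  have h12 : Representation.subrepresentation (ρ.comp P.subtype) U h10 z = c • 1 :=
    LinearMap.ext fun v => Subtype.ext (End.mem_eigenspace_iff.mp v.2)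
  have h13 : δ z = 1 := by
    have := congrArg δ h5
    rwa [map_mul, map_mul, mul_right_comm, ← map_mul, mul_inv_cancel, map_one, map_mul,
      mul_left_inj' ((Group.isUnit x).map δ).ne_zero, eq_comm] at this
  have h14 : c ^ l = 1 := by
    obtain ⟨v, hv, hv'⟩ := (Submodule.ne_bot_iff _).mp h9
    have := rho_pow_of_eigen (End.mem_eigenspace_iff.mp hv) l
    rw [h7, map_one] at this
    exact smul_left_injective k hv' (this.symm.trans (one_smul k v).symm)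
  simp only [δ, MonoidHom.comp_apply, h12, LinearMap.det_smul, map_one, mul_one] at h13
  have h15 := Nat.le_of_dvd (Submodule.one_le_finrank_iff.mpr h9)
    ((orderOf_eq_prime h14 h8) ▸ orderOf_dvd_of_pow_eq_one h13)
  omega

end Cfsg.Agent.Lib.Forms
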